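import Cfsg.Agent.Lib.Helper27.G2Vec
import Cfsg.Prelude.Def_ChevWords

/-!
# Words in root elements of type `G₂` over `ZMod 3` acting on coded vectors (helper27)
-/

set_option autoImplicit false

namespace Cfsg.Agent.Lib.Helper27.G2Vec

open Cfsg.Lie Matrix Cfsg.Agent.Lib.Helper28

/-- the code of the image of a coded vector -/
noncomputable def applyRows (rows : List (List ℕ)) : ℕ → ℕ :=
  List.rec (motive := fun _ => ℕ → ℕ) (fun _ => 0)
    (fun row _ ih m => Nat.add (Nat.mod (dotN row m 0) 3) (Nat.mul 3 (ih m))) rows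

theorem applyRows_cons (row : List ℕ) (rows : List (List ℕ)) (m : ℕ) :
    applyRows (row :: rows) m = dotN row m 0 % 3 + 3 * applyRows rows m := rfl

theorem dig_applyRows (rows : List (List ℕ)) (m : ℕ) : ∀ r < rows.length,
    dig (applyRows rows m) r = dotN (rows.getD r []) m 0 % 3 := by
  induction rows with
  | nil => intro r hr; exact absurd hr (by simp)
  | cons row rows ih =>
    intro r hr
    rw [applyRows_cons]
    cases r with
    | zero =>
      rw [dig_zero]
      simp only [List.getD_cons_zero]
      omega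
    | succ r =>
      rw [← dig_succ]
      have e : (dotN row m 0 % 3 + 3 * applyRows rows m) / 3 = applyRows rows m := by omega
      rw [e]
      exact ih r (by simpa using hr)

theorem HM.mulVec_eq {M : Matrix chevG2.Idx chevG2.Idx (ZMod 3)} {rows : List (List ℕ)} (h : HM M rows)
    (m : ℕ) : M *ᵥ vecOf m = vecOf (applyRows rows m) := by
  funext a
  rw [h.mulVec_apply, ← ZMod.natCast_mod]
  unfold vecOf
  rw [dig_applyRows rows m (enc a) (by rw [h.2.1]; exact enc_lt a)]

/-- application of a product of matrices -/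
noncomputable def applyW (Rs : List (List (List ℕ))) : ℕ → ℕ :=
  List.rec (motive := fun _ => ℕ → ℕ) (fun m => m)
    (fun R _ ih m => force (ih m) (fun m' => applyRows R m')) Rs

theorem applyW_cons (R : List (List ℕ)) (Rs : List (List (List ℕ))) (m : ℕ) :
    applyW (R :: Rs) m = applyRows R (applyW Rs m) := by
  have e : applyW (R :: Rs) m = force (applyW Rs m) (fun m' => applyRows R m') := rfl
  rw [e, force_eq]

theorem HM_x {r : ℕ} (h : r < chevG2.nroots) {t : ZMod 3} {rows : List (List ℕ)}
    (hm : HM (chevG2.xMat (ZMod 3) ⟨r, h⟩ t) rows) : HM (chevG2.x (ZMod 3) r t) rows := by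
  unfold ChevalleyDatum.x
  rw [dif_pos h]
  exact hm

theorem wordMat_mulVec (w : List (ℕ × ZMod 3)) (Rs : List (List (List ℕ)))
    (h : List.Forall₂ (fun p R => HM (chevG2.x (ZMod 3) p.1 p.2) R) w Rs) (m : ℕ) :
    chevG2.wordMat (ZMod 3) w *ᵥ vecOf m = vecOf (applyW Rs m) := by
  induction h with
  | nil =>
    unfold ChevalleyDatum.wordMat
    rw [List.map_nil, List.prod_nil, Matrix.one_mulVec]
    rfl
  | cons h1 _ ih =>
    unfold ChevalleyDatum.wordMat at ih ⊢
    rw [List.map_cons, List.prod_cons, ← Matrix.mulVec_mulVec, ih, h1.mulVec_eq, applyW_cons]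

end Cfsg.Agent.Lib.Helper27.G2Vec
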