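import Cfsg.Agent.Lib.Helper7.MathieuSimple
import Cfsg.Agent.Lib.Helper10.PCore

/-!
# A simplicity criterion for a transitive group of degree 100 with simple point stabiliser
-/

set_option autoImplicit false

namespace Cfsg.Agent.Lib.Helper27

open Subgroup MulAction

theorem isSimpleGroup_of_degree_100 {G X : Type*} [Group G] [Finite G] [MulAction G X] [Finite X]
    (hX : Nat.card X = 100) (hG : Nat.card G = 44352000) (ω : X)
    (htr : ∀ y : X, ∃ g : G, g • ω = y)
    (hS : IsSimpleGroup (stabilizer G ω))
    (x : G) (hxω : x • ω = ω) (hx : orderOf x = 11) (hfix : ∀ y : X, x • y = y → y = ω)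
    (hC : ∀ c : G, c • ω = ω → c * x = x * c → c ∈ zpowers x) : IsSimpleGroup G := by
  haveI : Fact (Nat.Prime 11) := ⟨by norm_num⟩
  haveI : Fact (Nat.Prime 5) := ⟨by norm_num⟩
  have hC' : ∀ c : G, c * x = x * c → c ∈ zpowers x := by
    intro c hc
    apply hC c _ hc
    apply hfix
    rw [← mul_smul, ← hc, mul_smul, hxω]
  have hzS : zpowers x ≤ stabilizer G ω := by
    rw [zpowers_le]; exact hxω
  -- normal subgroups meeting the stabiliser trivially
  have hL : ∀ N : Subgroup G, N.Normal → N ⊓ stabilizer G ω = ⊥ →
      Nat.card N ∣ 100 ∧ Nat.card N ≡ 1 [MOD 11] := by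
    intro N hN hdisj
    constructor
    · have hfree : ∀ y : X, stabilizer N y = ⊥ := by
        intro y
        rw [eq_bot_iff]
        rintro ⟨n, hn⟩ hny
        obtain ⟨g, rfl⟩ := htr y
        have h1 : n • g • ω = g • ω := hny
        have h2 : g⁻¹ * n * g ∈ N ⊓ stabilizer G ω := by
          refine mem_inf.2 ⟨?_, ?_⟩
          · have := hN.conj_mem n hn g⁻¹
            simpa using this
          · rw [mem_stabilizer_iff, mul_smul, mul_smul, h1, inv_smul_smul]
        rw [hdisj, mem_bot] at h2
        have h3 : n = 1 := by
          have : n = g * (g⁻¹ * n * g) * g⁻¹ := by group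
          rw [this, h2]; group
        rw [mem_bot]
        exact Subtype.ext h3
      have e := Nat.card_congr (selfEquivOrbitsQuotientProd hfree)
      rw [Nat.card_prod, hX] at e
      exact ⟨_, by rw [e, mul_comm]⟩
    · have hpg : IsPGroup 11 (zpowers x) := by
        apply IsPGroup.of_card (n := 1)
        rw [Nat.card_zpowers, hx, pow_one]
      have h1 := Cfsg.Agent.Lib.Helper10.card_modEq_card_centralizer (zpowers x) N hpg
        (by rw [normalizer_eq_top]; exact le_top)
      have h2 : N ⊓ centralizer (zpowers x : Set G) = ⊥ := by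
        rw [eq_bot_iff]
        intro c hc
        rw [mem_inf, mem_centralizer_iff] at hc
        have h3 := hC' c (hc.2 x (mem_zpowers x)).symm
        rw [← hdisj]
        exact mem_inf.2 ⟨hc.1, hzS h3⟩
      rw [h2] at h1
      simpa using h1
  obtain ⟨P, hP, hPc⟩ := Cfsg.Agent.Lib.Helper7.exists_sylow_of_self_centralizing 11 x hx
    (by rw [hG]; norm_num) hC'
  apply Cfsg.Agent.Lib.Helper7.isSimpleGroup_of_sylow_prime 11 5 (by norm_num) P hP
  · intro N hN hbot
    haveI := hN
    have hnorm : (N.subgroupOf (stabilizer G ω)).Normal := inferInstance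
    rcases hS.eq_bot_or_eq_top_of_normal _ hnorm with h | h
    · exfalso
      rw [subgroupOf_eq_bot, disjoint_iff] at h
      obtain ⟨h1, h2⟩ := hL N hN h
      have h3 : Nat.card N = 1 ∨ Nat.card N = 100 := by
        have : ∀ d ∈ Nat.divisors 100, d % 11 = 1 → d = 1 ∨ d = 100 := by decide
        exact this _ (Nat.mem_divisors.2 ⟨h1, by norm_num⟩) h2
      rcases h3 with h3 | h3
      · exact hbot (N.card_eq_one.1 h3)
      · -- the Sylow 5-subgroup of `N`
        let Q : Sylow 5 N := Classical.arbitrary _
        have hQi : Nat.card Q * (Q : Subgroup N).index = 100 := by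
          rw [← h3]; exact (Q : Subgroup N).card_mul_index
        have hQn : ¬ 5 ∣ (Q : Subgroup N).index := Q.not_dvd_index
        obtain ⟨k, hk⟩ := IsPGroup.iff_card.1 Q.2
        have hQ25 : Nat.card Q = 25 := by
          rw [hk] at hQi ⊢
          rcases k with _ | _ | _ | k
          · exfalso; apply hQn; rw [pow_zero, one_mul] at hQi; rw [hQi]; norm_num
          · exfalso; apply hQn
            have : (Q : Subgroup N).index = 20 := by omega
            rw [this]; norm_num
          · norm_num
          · exfalso
            have : 125 ∣ 100 := by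
              rw [← hQi]
              refine Dvd.dvd.mul_right ?_ _
              rw [show k + 1 + 1 + 1 = 3 + k by ring, pow_add]
              exact Dvd.intro _ rfl
            revert this; norm_num
        have hidx : (Q : Subgroup N).index = 4 := by rw [hQ25] at hQi; omega
        have hs1 : Nat.card (Sylow 5 N) = 1 := by
          have a1 := card_sylow_modEq_one 5 N
          have a2 := Q.card_dvd_index
          rw [hidx] at a2
          have : ∀ d ∈ Nat.divisors 4, d % 5 = 1 → d = 1 := by decide
          exact this _ (Nat.mem_divisors.2 ⟨a2, by norm_num⟩) a1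
        haveI : Subsingleton (Sylow 5 N) := (Nat.card_eq_one_iff_unique.1 hs1).1
        haveI : (Q : Subgroup N).Characteristic := Sylow.characteristic_of_subsingleton Q
        have hQnorm : ((Q : Subgroup N).map N.subtype).Normal :=
          ConjAct.normal_of_characteristic_of_normal
        have hQle : (Q : Subgroup N).map N.subtype ≤ N := map_subtype_le _
        have hQd : (Q : Subgroup N).map N.subtype ⊓ stabilizer G ω = ⊥ := by
          rw [eq_bot_iff, ← h]
          exact inf_le_inf_right _ hQle
        have hQc : Nat.card ((Q : Subgroup N).map N.subtype) = 25 := by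
          rw [card_map_of_injective N.subtype_injective]; exact hQ25
        have := (hL _ hQnorm hQd).2
        rw [hQc] at this
        revert this; decide
    · rw [subgroupOf_eq_top] at h
      have hxN : x ∈ N := h hxω
      have := orderOf_dvd_natCard (⟨x, hxN⟩ : N)
      rwa [Subgroup.orderOf_mk, hx] at this
  · apply Cfsg.Agent.Lib.Helper7.card_normalizer_eq_of_numeric 11 5 1 44352000 P hP hG _ one_ne_zero
      (by decide)
    rw [hPc]
  · rw [hG]; norm_num

end Cfsg.Agent.Lib.Helper27
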