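import Cfsg.Agent.Lib.Helper7.MathieuSimple
import Cfsg.Agent.Lib.Helper27.StabOrders

/-!
# An element of order 11 of the stabiliser of the points 22, 23, and the sign of an involution
-/

set_option autoImplicit false

namespace Cfsg.Agent.Lib.Helper27

open Cfsg Cfsg.Agent.Lib.Helper7
open scoped Pointwise

theorem cx11_fixed : ∀ p : GolayPt, permOf cx11 p = p → p = pt 0 ∨ p = pt 23 := by
  intro p
  rw [permOf_apply cx11_valid]
  revert p
  decide +kernel

theorem exists_elt11 : ∃ x ∈ M24, x (pt 22) = pt 22 ∧ x (pt 23) = pt 23 ∧ orderOf x = 11 ∧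
    (∀ q, x q = q → q = pt 22 ∨ q = pt 23) ∧ (∀ O ∈ octads, x • O ≠ O) ∧
    (∀ p ∈ M24, p (pt 22) = pt 22 → p (pt 23) = pt 23 → p * x = x * p →
      p ∈ Subgroup.zpowers x) := by
  obtain ⟨u, hu, hu23, hu0⟩ := trans2pt (x1 := pt 23) (x2 := pt 0) (y1 := pt 23) (y2 := pt 22)
    (by decide) (by decide)
  have hx0 : permOf cx11 ∈ fixer L2 := permOf_mem_fixer cx11_check
  have h0 : permOf cx11 (pt 0) = pt 0 :=
    (smul_unmask_two_pow (by norm_num) _).1 (hx0.2 (2 ^ 0) (by simp [L2]))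
  have h23 : permOf cx11 (pt 23) = pt 23 :=
    (smul_unmask_two_pow (by norm_num) _).1 (hx0.2 (2 ^ 23) (by simp [L2]))
  have hui22 : u⁻¹ (pt 22) = pt 0 := by rw [Equiv.Perm.inv_eq_iff_eq, hu0]
  have hui23 : u⁻¹ (pt 23) = pt 23 := by rw [Equiv.Perm.inv_eq_iff_eq, hu23]
  refine ⟨u * permOf cx11 * u⁻¹, M24.mul_mem (M24.mul_mem hu hx0.1) (M24.inv_mem hu), ?_, ?_, ?_,
    ?_, ?_, ?_⟩
  · rw [Equiv.Perm.mul_apply, Equiv.Perm.mul_apply, hui22, h0, hu0]
  · rw [Equiv.Perm.mul_apply, Equiv.Perm.mul_apply, hui23, h23, hu23]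
  · rw [← MulAut.conj_apply, MulEquiv.orderOf_eq, orderOf_cx11]
  · intro q hq
    rw [Equiv.Perm.mul_apply, Equiv.Perm.mul_apply] at hq
    have h1 : permOf cx11 (u⁻¹ q) = u⁻¹ q := by
      rw [Equiv.Perm.eq_inv_iff_eq, hq]
    rcases cx11_fixed _ h1 with h | h
    · left; rw [Equiv.Perm.inv_eq_iff_eq] at h; rw [h, hu0]
    · right; rw [Equiv.Perm.inv_eq_iff_eq] at h; rw [h, hu23]
  · intro O hO hfix
    rw [mul_smul, mul_smul, smul_eq_iff_eq_inv_smul] at hfix
    have hO' := smul_mem_octads (M24.inv_mem hu) hO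
    rw [mem_octads_iff] at hO'
    have h1 : permMask cx11 (mask (u⁻¹ • O)) = mask (u⁻¹ • O) := by
      rw [← mask_smul_permOf cx11_valid, hfix]
    rcases cx11_inv_words _ hO'.1 h1 with h | h | h | h <;> rw [h] at hO' <;>
      exact absurd hO'.2 (by decide +kernel)
  · intro p hp hp22 hp23 hcomm
    have hc : u⁻¹ * p * u ∈ fixer L2 := by
      refine ⟨M24.mul_mem (M24.mul_mem (M24.inv_mem hu) hp) hu, ?_⟩
      intro m hm
      simp only [L2, List.mem_cons, List.not_mem_nil, or_false] at hm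
      rcases hm with rfl | rfl
      · rw [smul_unmask_two_pow (by norm_num), Equiv.Perm.mul_apply, Equiv.Perm.mul_apply, hu0, hp22,
          hui22]
      · rw [smul_unmask_two_pow (by norm_num), Equiv.Perm.mul_apply, Equiv.Perm.mul_apply, hu23, hp23,
          hui23]
    have hcomm' : u⁻¹ * p * u * permOf cx11 = permOf cx11 * (u⁻¹ * p * u) := by
      have e1 : u⁻¹ * p * u * permOf cx11 = u⁻¹ * (p * (u * permOf cx11 * u⁻¹)) * u := by group
      have e2 : permOf cx11 * (u⁻¹ * p * u) = u⁻¹ * ((u * permOf cx11 * u⁻¹) * p) * u := by group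
      rw [e1, e2, hcomm]
    obtain ⟨k, hk⟩ := Subgroup.mem_zpowers_iff.1 (centralizer_cx11 _ hc hcomm')
    rw [Subgroup.mem_zpowers_iff]
    refine ⟨k, ?_⟩
    rw [conj_zpow, hk]
    group

/-- the sign of an involution moving `2 k` points. -/
theorem sign_of_involution {V : Type*} [Fintype V] [DecidableEq V] (σ : Equiv.Perm V)
    (h2 : σ * σ = 1) (k : ℕ) (hk : σ.support.card = 2 * k) : Equiv.Perm.sign σ = (-1) ^ k := by
  have hord : orderOf σ ∣ 2 := orderOf_dvd_of_pow_eq_one (by rw [pow_two, h2])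
  have hall : ∀ n ∈ σ.cycleType, n = 2 := by
    intro n hn
    have h1 := Equiv.Perm.two_le_of_mem_cycleType hn
    have h3 := Nat.le_of_dvd (by norm_num) ((Equiv.Perm.dvd_of_mem_cycleType hn).trans hord)
    omega
  have hrep := Multiset.eq_replicate_card.2 hall
  have hsum := Equiv.Perm.sum_cycleType σ
  rw [hrep, Multiset.sum_replicate, hk, smul_eq_mul] at hsum
  have hcard : Multiset.card σ.cycleType = k := by omega
  rw [Equiv.Perm.sign_of_cycleType, Equiv.Perm.sum_cycleType, hk, hcard, pow_add, pow_mul]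
  norm_num

end Cfsg.Agent.Lib.Helper27
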