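import Cfsg.Agent.Lib.Helper27.WHSAut
import Cfsg.Agent.Lib.Helper27.HSCrit
import Cfsg.Agent.Lib.Helper27.HSElt
import Cfsg.Agent.S0379

/-!
# The simple subgroup of index two in the automorphism group of the graph on 100 vertices
-/

set_option autoImplicit false
set_option maxRecDepth 100000

namespace Cfsg.Agent.Lib.Helper27

open Cfsg
open scoped Pointwise

theorem hom_trivial_of_simple {S : Type*} [Group S] [IsSimpleGroup S] (hcard : 2 < Nat.card S)
    (ψ : S →* ℤˣ) (s : S) : ψ s = 1 := by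
  rcases (ψ.normal_ker).eq_bot_or_eq_top with h | h
  · exfalso
    have hinj : Function.Injective ψ := (MonoidHom.ker_eq_bot_iff ψ).1 h
    have := Nat.card_le_card_of_injective ψ hinj
    rw [Nat.card_eq_fintype_card (α := ℤˣ), Fintype.card_units_int] at this
    omega
  · have : s ∈ ψ.ker := by rw [h]; exact Subgroup.mem_top s
    exact this

theorem smul_image_of_equivariant {α : Type*} [DecidableEq α] {f : α → GolayPt}
    {g : Equiv.Perm α} {k : Equiv.Perm GolayPt} (h : ∀ a, k (f a) = f (g a)) (b : Finset α) :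
    k • (b.image f) = (g • b).image f := by
  ext p
  simp only [Finset.mem_image, Finset.mem_smul_finset]
  constructor
  · rintro ⟨_, ⟨a, ha, rfl⟩, rfl⟩
    exact ⟨g a, ⟨a, ha, rfl⟩, (h a).symm⟩
  · rintro ⟨_, ⟨a, ha, rfl⟩, rfl⟩
    exact ⟨f a, ⟨a, ha, rfl⟩, h a⟩

/-- table of an odd involution fixing the extra vertex. -/
def t0T : ℕ := 0xc78b061bf6eedcbd429d6ab62bd4b34a7daa3326ce96fe1458f06443892634094edbbc7ccdb387ae5a35747d897428cd2c4aa91184e9959e5ca57a06490e9c32b4da86058a940818888180848f161c69014482930638080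

theorem t0_check : autCheck rowHS 100 (ent7 t0T) (ent7 t0T) = true := by decide +kernel

theorem t0_moved : allBelow (fun i => beqB (tb 262418918536593460532207286228 i) (bnot (Nat.beq (ent7 t0T i) i))) 100 = true := by
  decide +kernel

theorem exists_odd {α : Type*} [Fintype α] [DecidableEq α] (hα : Fintype.card α = 22)
    {B : Set (Finset α)} (hB : IsSteinerSystem 3 6 B) [Fintype B] :
    ∃ σ ∈ graphAut (pointBlockGraph B), σ none = none ∧ Equiv.Perm.sign σ = -1 := by
  obtain ⟨ι, M, ι0, -, -⟩ := exists_model_HS hα hB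
  obtain ⟨τ, hτ⟩ := M.exists_aut t0_check
  have hτ' : ∀ v, ι (τ.toEquiv v) = ent7 t0T (ι v) := hτ
  have hinv : ∀ i < 100, ent7 t0T (ent7 t0T i) = i := by
    have h := t0_check
    unfold autCheck at h
    simp only [allBelow_iff, band_eq, Bool.and_eq_true, Nat.blt_eq, Nat.beq_eq] at h
    exact fun i hi => (h i hi).2.2.1
  refine ⟨τ.toEquiv, fun _ _ => τ.map_rel_iff, ?_, ?_⟩
  · apply M.inj
    rw [hτ', ι0]
    decide +kernel
  · have h2 : τ.toEquiv * τ.toEquiv = 1 := by
      apply Equiv.ext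
      intro v
      apply M.inj
      rw [Equiv.Perm.mul_apply, hτ', hτ', hinv _ (M.lt v)]
      rfl
    have hsupp : (Equiv.Perm.support τ.toEquiv).card = 2 * 35 := by
      rw [← Set.ncard_coe_finset, M.ncard_eq (by norm_num) _ 262418918536593460532207286228 _ (by norm_num)]
      · decide +kernel
      · intro v
        have h3 := (allBelow_iff _ _).1 t0_moved _ (M.lt v)
        rw [beqB_iff, tb_eq] at h3
        rw [h3, bnot_eq, Bool.not_eq_true', Finset.mem_coe, Equiv.Perm.mem_support,
          ← Bool.not_eq_true, Nat.beq_eq, ← hτ']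
        exact not_congr M.inj.eq_iff.symm
    rw [sign_of_involution _ h2 35 hsupp]
    decide

theorem exists_HS_perm {α : Type*} [Fintype α] [DecidableEq α] (hα : Fintype.card α = 22)
    {B : Set (Finset α)} (hB : IsSteinerSystem 3 6 B) :
    ∃ H : Subgroup (Equiv.Perm (Option (α ⊕ B))), H ≤ graphAut (pointBlockGraph B) ∧
      IsSimpleGroup H ∧ Nat.card H = 44352000 := by
  classical
  haveI : Fintype B := Fintype.ofFinite _
  obtain ⟨τ0, hτ0A, hτ0n, hτ0s⟩ := exists_odd hα hB
  obtain ⟨f, φ, hf, hr, hBf, hφ⟩ := exists_autEquiv (emb2 hα hB)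
  obtain ⟨χ⟩ := exists_equiv_R2
  -- the subgroup of index two of the automorphism group of the system
  let P' := (autR (unmask 12582912) ⊓ M24).subgroupOf (autR (unmask 12582912))
  have hP'i : P'.index = 2 := index_R2
  have hmemP' : ∀ y : autR (unmask 12582912), y ∈ P' ↔ (y : Equiv.Perm GolayPt) ∈ M24 := by
    intro y
    rw [Subgroup.mem_subgroupOf, Subgroup.mem_inf]
    exact ⟨fun h => h.2, fun h => ⟨y.2, h⟩⟩
  let ξ : P' ≃* ↥(MulAction.stabilizer M24 (pt 22) ⊓ MulAction.stabilizer M24 (pt 23)) :=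
    (Subgroup.subgroupOfEquivOfLe inf_le_left).trans χ.symm
  haveI hsimpleM : IsSimpleGroup
      ↥(MulAction.stabilizer M24 (pt 22) ⊓ MulAction.stabilizer M24 (pt 23)) :=
    S0379.result (pt 22) (pt 23) (by decide)
  haveI hP's : IsSimpleGroup P' := ξ.isSimpleGroup
  have hP'c : Nat.card P' = 443520 := by
    rw [Nat.card_congr ξ.toEquiv]; exact card_stab_two_pt (by decide)
  let sgn : setSystemAut B →* ℤˣ := Equiv.Perm.sign.comp theta
  have hsgn : ∀ g, sgn g = Equiv.Perm.sign (theta g) := fun _ => rfl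
  have C1 : ∀ g : setSystemAut B, ((φ g : autR (unmask 12582912)) : Equiv.Perm GolayPt) ∈ M24 →
      sgn g = 1 := by
    intro g hg
    have := hom_trivial_of_simple (by rw [hP'c]; norm_num)
      ((sgn.comp (φ.symm : _ →* _)).comp P'.subtype) ⟨φ g, (hmemP' _).2 hg⟩
    simpa using this
  obtain ⟨g0, hg0⟩ := exists_theta_eq hτ0A hτ0n
  have hg0s : sgn g0 = -1 := by rw [hsgn, hg0, hτ0s]
  have hg0M : ((φ g0 : autR (unmask 12582912)) : Equiv.Perm GolayPt) ∉ M24 := by
    intro h
    have := C1 g0 h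
    rw [hg0s] at this
    revert this; decide
  have C3 : ∀ g : setSystemAut B, sgn g = 1 →
      ((φ g : autR (unmask 12582912)) : Equiv.Perm GolayPt) ∈ M24 := by
    intro g hg
    by_contra hcon
    have h1 : φ g * φ g0 ∈ P' := by
      rw [Subgroup.mul_mem_iff_of_index_two hP'i, hmemP', hmemP']
      exact ⟨fun h => absurd h hcon, fun h => absurd h hg0M⟩
    rw [← map_mul, hmemP'] at h1
    have h2 := C1 _ h1
    rw [map_mul, hg, hg0s] at h2
    revert h2; decide
  -- the group
  let A := graphAut (pointBlockGraph B)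
  let H : Subgroup (Equiv.Perm (Option (α ⊕ B))) := A ⊓ alternatingGroup (Option (α ⊕ B))
  have hmemH : ∀ σ, σ ∈ H ↔ σ ∈ A ∧ Equiv.Perm.sign σ = 1 := by
    intro σ
    rw [Subgroup.mem_inf, Equiv.Perm.mem_alternatingGroup]
  have hHcard : Nat.card H = 44352000 := by
    have hidx : (H.subgroupOf A).index = 2 := by
      rw [Subgroup.index_eq_two_iff]
      refine ⟨⟨τ0, hτ0A⟩, ?_⟩
      rintro ⟨b, hb⟩
      have m1 : (⟨b, hb⟩ * ⟨τ0, hτ0A⟩ : A) ∈ H.subgroupOf A ↔ Equiv.Perm.sign b = -1 := by
        rw [Subgroup.mem_subgroupOf, hmemH]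
        show (b * τ0 ∈ A ∧ Equiv.Perm.sign (b * τ0) = 1) ↔ _
        rw [map_mul, hτ0s]
        constructor
        · rintro ⟨-, h⟩
          rcases Int.units_eq_one_or (Equiv.Perm.sign b) with h' | h'
          · rw [h'] at h; exact absurd h (by decide)
          · exact h'
        · intro h
          exact ⟨A.mul_mem hb hτ0A, by rw [h]; decide⟩
      have m2 : (⟨b, hb⟩ : A) ∈ H.subgroupOf A ↔ Equiv.Perm.sign b = 1 := by
        rw [Subgroup.mem_subgroupOf, hmemH]
        exact ⟨fun h => h.2, fun h => ⟨hb, h⟩⟩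
      rw [m1, m2]
      rcases Int.units_eq_one_or (Equiv.Perm.sign b) with h' | h'
      · rw [h']; exact Or.inr ⟨rfl, by decide⟩
      · rw [h']; exact Or.inl ⟨rfl, by decide⟩
    have h1 : (H.subgroupOf A).index * Nat.card (H.subgroupOf A) = Nat.card A :=
      Subgroup.index_mul_card _
    have h2 : Nat.card A = 88704000 := card_graphAut_HS hα hB
    have h3 : Nat.card (H.subgroupOf A) = Nat.card H :=
      Nat.card_congr (Subgroup.subgroupOfEquivOfLe (inf_le_left : H ≤ A)).toEquiv
    rw [hidx, h2, h3] at h1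
    omega
  refine ⟨H, inf_le_left, ?_, hHcard⟩
  have hthetaH : ∀ g : setSystemAut B, sgn g = 1 → theta g ∈ H := fun g hg =>
    (hmemH _).2 ⟨theta_mem g, hg⟩
  -- the element of order 11
  obtain ⟨x11, hxM, hx22, hx23, hxo, hxfix, hxoct, hxC⟩ := exists_elt11
  have hxA : x11 ∈ autR (unmask 12582912) :=
    (Subgroup.mem_inf.1 (mem_autR_R2_inf.2 ⟨hxM, hx22, hx23⟩)).1
  let g11 : setSystemAut B := φ.symm ⟨x11, hxA⟩
  have hφ11 : φ g11 = ⟨x11, hxA⟩ := φ.apply_symm_apply _
  have hs11 : sgn g11 = 1 := C1 g11 (by rw [hφ11]; exact hxM)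
  have heq11 : ∀ a, x11 (f a) = f ((g11 : Equiv.Perm α) a) := by
    intro a
    have := hφ g11 a
    rw [hφ11] at this
    exact this
  obtain ⟨ι, M, -⟩ := exists_model_HS hα hB
  have hV : Nat.card (Option (α ⊕ B)) = 100 := by
    rw [Nat.card_eq_fintype_card, M.card_eq]
  apply isSimpleGroup_of_degree_100 (G := H) (X := Option (α ⊕ B)) hV hHcard none
    (x := ⟨theta g11, hthetaH g11 hs11⟩)
  · -- transitivity
    intro v
    obtain ⟨σ, hσ, hσv⟩ := graphAut_transitive hα hB v
    rcases Int.units_eq_one_or (Equiv.Perm.sign σ) with h | h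
    · exact ⟨⟨σ, (hmemH _).2 ⟨hσ, h⟩⟩, hσv⟩
    · refine ⟨⟨σ * τ0, (hmemH _).2 ⟨A.mul_mem hσ hτ0A, by rw [map_mul, h, hτ0s]; decide⟩⟩, ?_⟩
      show (σ * τ0) none = v
      rw [Equiv.Perm.mul_apply, hτ0n, hσv]
  · -- the stabiliser is simple
    let PB : Subgroup (setSystemAut B) := P'.map (φ.symm : _ →* _)
    have hmemPB : ∀ g, g ∈ PB ↔ ((φ g : autR (unmask 12582912)) : Equiv.Perm GolayPt) ∈ M24 := by
      intro g
      rw [← hmemP']
      constructor
      · rintro ⟨y, hy, rfl⟩
        show φ (φ.symm y) ∈ P'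
        rw [φ.apply_symm_apply]; exact hy
      · intro h
        exact ⟨φ g, h, φ.symm_apply_apply g⟩
    haveI : IsSimpleGroup PB := (φ.symm.subgroupMap P').symm.isSimpleGroup
    let Ξ : PB →* MulAction.stabilizer H (none : Option (α ⊕ B)) :=
      { toFun := fun g => ⟨⟨theta g.1, hthetaH g.1 (C1 g.1 ((hmemPB _).1 g.2))⟩, rfl⟩
        map_one' := by
          apply Subtype.ext; apply Subtype.ext
          exact map_one theta
        map_mul' := by
          intro a b
          apply Subtype.ext; apply Subtype.ext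
          exact map_mul theta a.1 b.1 }
    have hΞ : Function.Bijective Ξ := by
      constructor
      · intro a b h
        have h1 : theta a.1 = theta b.1 := congrArg (fun s => s.1.1) h
        exact Subtype.ext (theta_injective h1)
      · rintro ⟨⟨σ, hσ⟩, hσn⟩
        obtain ⟨g, hg⟩ := exists_theta_eq ((hmemH _).1 hσ).1 hσn
        have hgs : sgn g = 1 := by rw [hsgn, hg]; exact ((hmemH _).1 hσ).2
        refine ⟨⟨g, (hmemPB g).2 (C3 g hgs)⟩, ?_⟩
        apply Subtype.ext; apply Subtype.ext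
        exact hg
    exact (MulEquiv.ofBijective Ξ hΞ).symm.isSimpleGroup
  · rfl
  · -- order
    rw [← Subgroup.orderOf_coe]
    show orderOf (theta g11) = 11
    rw [orderOf_injective theta theta_injective, ← MulEquiv.orderOf_eq φ, hφ11, Subgroup.orderOf_mk,
      hxo]
  · -- fixed vertices
    intro v hv
    have hv' : theta g11 v = v := hv
    rcases v with _ | a | b
    · rfl
    · exfalso
      rw [theta_inl] at hv'
      have h1 : (g11 : Equiv.Perm α) a = a := by simpa using hv'
      have h2 := heq11 a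
      rw [h1] at h2
      have h3 : f a ∉ unmask 12582912 := (hr _).2 ⟨a, rfl⟩
      apply h3
      rw [mem_R2]
      exact hxfix _ h2
    · exfalso
      rw [theta_inr] at hv'
      have h1 : permB g11 b = b := by simpa using hv'
      have h2 : (g11 : Equiv.Perm α) • (b : Finset α) = b := by
        rw [← permB_coe, h1]
      apply hxoct _ ((hBf b).1 b.2)
      rw [Finset.smul_finset_union, smul_image_of_equivariant heq11, h2,
        smul_eq_of_fixes hxA.1]
  · -- centraliser
    rintro ⟨c, hc⟩ hcn hcomm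
    obtain ⟨g, hg⟩ := exists_theta_eq ((hmemH _).1 hc).1 hcn
    have hgs : sgn g = 1 := by rw [hsgn, hg]; exact ((hmemH _).1 hc).2
    have hgM := C3 g hgs
    have hcomm1 : c * theta g11 = theta g11 * c := congrArg Subtype.val hcomm
    rw [← hg, ← map_mul, ← map_mul] at hcomm1
    have hcomm2 : g * g11 = g11 * g := theta_injective hcomm1
    have hcomm3 : ((φ g : autR (unmask 12582912)) : Equiv.Perm GolayPt) * x11 =
        x11 * ((φ g : autR (unmask 12582912)) : Equiv.Perm GolayPt) := by
      have := congrArg (fun y => ((φ y : autR (unmask 12582912)) : Equiv.Perm GolayPt)) hcomm2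
      simp only [map_mul, hφ11, Subgroup.coe_mul] at this
      exact this
    have hz := hxC _ hgM ((φ g).2.1 _ (by decide)) ((φ g).2.1 _ (by decide)) hcomm3
    obtain ⟨k, hk⟩ := Subgroup.mem_zpowers_iff.1 hz
    rw [Subgroup.mem_zpowers_iff]
    refine ⟨k, ?_⟩
    apply Subtype.ext
    rw [Subgroup.coe_zpow]
    show theta g11 ^ k = c
    rw [← hg, ← map_zpow]
    congr 1
    apply φ.injective
    rw [map_zpow, hφ11]
    apply Subtype.ext
    rw [Subgroup.coe_zpow]
    exact hk

theorem exists_HS {α : Type*} [Fintype α] [DecidableEq α] (hα : Fintype.card α = 22)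
    {B : Set (Finset α)} (hB : IsSteinerSystem 3 6 B) :
    ∃ H : Subgroup (pointBlockGraph B ≃g pointBlockGraph B), IsHS H := by
  obtain ⟨H, hle, hs, hc⟩ := exists_HS_perm hα hB
  let e := (graphAutEquiv (pointBlockGraph B)).symm
  let K := H.subgroupOf (graphAut (pointBlockGraph B))
  let ψ := (e.subgroupMap K).symm.trans (Subgroup.subgroupOfEquivOfLe hle)
  refine ⟨K.map (e : ↥(graphAut (pointBlockGraph B)) →* (pointBlockGraph B ≃g pointBlockGraph B)),
    ?_, ?_⟩
  · haveI := hs
    exact ψ.isSimpleGroup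
  · rw [Nat.card_congr ψ.toEquiv, hc]

end Cfsg.Agent.Lib.Helper27
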