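import Cfsg.Agent.Lib.Helper27.Hexa

/-!
# Monomial automorphisms of the hexacode
-/

set_option autoImplicit false

namespace Cfsg.Agent.Lib.Helper27

open Cfsg

section general
variable {F : Type*} [Field F] {n : ℕ} (C : Submodule F (Fin n → F))

/-- the monomial map preserves the code. -/
def Pres (σ : Equiv.Perm (Fin n)) (c : Fin n → Fˣ) : Prop := ∀ x ∈ C, monomialMap σ c x ∈ C

theorem pres_one : Pres C 1 1 := by
  intro x hx
  have : monomialMap (1 : Equiv.Perm (Fin n)) (1 : Fin n → Fˣ) x = x := by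
    funext i
    simp only [monomialMap, Pi.one_apply, Units.val_one, one_mul]
    rfl
  rw [this]; exact hx

theorem monomialMap_comp (σ τ : Equiv.Perm (Fin n)) (c d : Fin n → Fˣ) (x : Fin n → F) :
    monomialMap σ c (monomialMap τ d x) = monomialMap (σ * τ) (fun i => c i * d (σ.symm i)) x := by
  funext i
  simp only [monomialMap, Units.val_mul, mul_assoc]
  rfl

variable {C}

theorem Pres.mul {σ τ : Equiv.Perm (Fin n)} {c d : Fin n → Fˣ} (h1 : Pres C σ c) (h2 : Pres C τ d) :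
    Pres C (σ * τ) (fun i => c i * d (σ.symm i)) := by
  intro x hx
  rw [← monomialMap_comp]
  exact h1 _ (h2 x hx)

theorem monomialMap_injective (σ : Equiv.Perm (Fin n)) (c : Fin n → Fˣ) :
    Function.Injective (monomialMap σ c : (Fin n → F) → (Fin n → F)) := by
  intro x y h
  funext j
  have := congrFun h (σ j)
  simp only [monomialMap, Equiv.symm_apply_apply] at this
  exact (c (σ j)).isUnit.mul_left_cancel this

theorem Pres.inv [Finite F] {σ : Equiv.Perm (Fin n)} {c : Fin n → Fˣ} (h : Pres C σ c) :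
    Pres C σ⁻¹ (fun i => (c (σ i))⁻¹) := by
  let f : C → C := fun x => ⟨monomialMap σ c x.1, h x.1 x.2⟩
  have hf : Function.Injective f := by
    intro x y hxy
    exact Subtype.ext (monomialMap_injective σ c (congrArg Subtype.val hxy))
  have hs : Function.Surjective f := Finite.injective_iff_surjective.1 hf
  intro y hy
  obtain ⟨x, hx⟩ := hs ⟨y, hy⟩
  have hx' : monomialMap σ c x.1 = y := congrArg Subtype.val hx
  have : monomialMap σ⁻¹ (fun i => (c (σ i))⁻¹) y = x.1 := by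
    rw [← hx']
    funext i
    have e : (σ⁻¹).symm i = σ i := rfl
    simp only [monomialMap, e, Equiv.symm_apply_apply]
    rw [← mul_assoc, ← Units.val_mul, inv_mul_cancel, Units.val_one, one_mul]
  rw [this]; exact x.2

theorem Pres.smul {σ : Equiv.Perm (Fin n)} {c : Fin n → Fˣ} (h : Pres C σ c) (l : Fˣ) :
    Pres C σ (fun i => l * c i) := by
  intro x hx
  have : monomialMap σ (fun i => l * c i) x = (l : F) • monomialMap σ c x := by
    funext i
    simp only [monomialMap, Units.val_mul, Pi.smul_apply, smul_eq_mul, mul_assoc]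
  rw [this]
  exact C.smul_mem _ (h x hx)

variable (C)

/-- the permutation parts of the monomial automorphisms. -/
def permPart [Finite F] : Subgroup (Equiv.Perm (Fin n)) where
  carrier := {σ | ∃ c, Pres C σ c}
  one_mem' := ⟨1, pres_one C⟩
  mul_mem' := by
    rintro σ τ ⟨c, hc⟩ ⟨d, hd⟩
    exact ⟨_, hc.mul hd⟩
  inv_mem' := by
    rintro σ ⟨c, hc⟩
    exact ⟨_, hc.inv⟩

theorem mem_permPart [Finite F] {σ : Equiv.Perm (Fin n)} : σ ∈ permPart C ↔ ∃ c, Pres C σ c :=
  Iff.rfl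

end general

/-! ### concrete checks -/

/-- the images of the three generators lie in the concrete hexacode. -/
def hchk (σ : Equiv.Perm (Fin 6)) (d : Fin 6 → H4) : Prop :=
  isHex (fun i => d i * hv1 (σ.symm i)) ∧ isHex (fun i => d i * hv2 (σ.symm i)) ∧
    isHex (fun i => d i * hv3 (σ.symm i))

instance (σ : Equiv.Perm (Fin 6)) (d : Fin 6 → H4) : Decidable (hchk σ d) := by
  unfold hchk; infer_instance

theorem hchk_diag : ∀ d0 d1 d2 d3 d4 d5 : H4, d0 ≠ 0 → d1 ≠ 0 → d2 ≠ 0 → d3 ≠ 0 → d4 ≠ 0 → d5 ≠ 0 →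
    hchk 1 ![d0, d1, d2, d3, d4, d5] → d1 = d0 ∧ d2 = d0 ∧ d3 = d0 ∧ d4 = d0 ∧ d5 = d0 := by
  decide +kernel

theorem hchk_swap : ∀ d0 d1 d2 d3 d4 d5 : H4, d0 ≠ 0 → d1 ≠ 0 → d2 ≠ 0 → d3 ≠ 0 → d4 ≠ 0 → d5 ≠ 0 →
    ¬ hchk (Equiv.swap 0 1) ![d0, d1, d2, d3, d4, d5] := by
  decide +kernel

set_option maxRecDepth 100000 in
theorem hchk_three : ∀ σ : Equiv.Perm (Fin 6), σ.support.card = 3 →
    ∃ d1 d2 d3 d4 d5 : H4, d1 ≠ 0 ∧ d2 ≠ 0 ∧ d3 ≠ 0 ∧ d4 ≠ 0 ∧ d5 ≠ 0 ∧
      hchk σ ![1, d1, d2, d3, d4, d5] := by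
  decide +kernel

/-! ### transfer -/

section
variable {F : Type*} [Field F] [Fintype F] (hF : Fintype.card F = 4) (ω : F)
  (hω : ω ^ 2 + ω + 1 = 0)

theorem monomialMap_add {n : ℕ} (σ : Equiv.Perm (Fin n)) (c : Fin n → Fˣ) (x y : Fin n → F) :
    monomialMap σ c (x + y) = monomialMap σ c x + monomialMap σ c y := by
  funext i
  simp only [monomialMap, Pi.add_apply, mul_add]

theorem monomialMap_smul {n : ℕ} (σ : Equiv.Perm (Fin n)) (c : Fin n → Fˣ) (a : F) (x : Fin n → F) :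
    monomialMap σ c (a • x) = a • monomialMap σ c x := by
  funext i
  simp only [monomialMap, Pi.smul_apply, smul_eq_mul]
  ring

theorem pres_iff_hchk (σ : Equiv.Perm (Fin 6)) (c : Fin 6 → Fˣ) :
    Pres (hexacode F ω) σ c ↔ hchk σ (fun i => toH4 hF ω hω (c i : F)) := by
  have e1 : ∀ (v : Fin 6 → F) (v' : Fin 6 → H4), (∀ i, toH4 hF ω hω (v i) = v' i) →
      (monomialMap σ c v ∈ hexacode F ω ↔
        isHex (fun i => toH4 hF ω hω (c i : F) * v' (σ.symm i))) := by
    intro v v' hv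
    rw [mem_hexacode_iff hF ω hω]
    simp only [monomialMap, map_mul, hv]
  constructor
  · intro h
    refine ⟨?_, ?_, ?_⟩
    · rw [← e1 _ _ (toH4_v1 hF ω hω)]
      exact h _ (Submodule.subset_span (by simp))
    · rw [← e1 _ _ (toH4_v2 hF ω hω)]
      exact h _ (Submodule.subset_span (by simp))
    · rw [← e1 _ _ (toH4_v3 hF ω hω)]
      exact h _ (Submodule.subset_span (by simp))
  · rintro ⟨h1, h2, h3⟩ x hx
    rw [← e1 _ _ (toH4_v1 hF ω hω)] at h1
    rw [← e1 _ _ (toH4_v2 hF ω hω)] at h2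
    rw [← e1 _ _ (toH4_v3 hF ω hω)] at h3
    have hx' := hx
    unfold hexacode at hx'
    rw [Submodule.mem_span_triple] at hx'
    obtain ⟨a, b, d, rfl⟩ := hx'
    rw [monomialMap_add, monomialMap_add, monomialMap_smul, monomialMap_smul, monomialMap_smul]
    exact Submodule.add_mem _ (Submodule.add_mem _ (Submodule.smul_mem _ _ h1)
      (Submodule.smul_mem _ _ h2)) (Submodule.smul_mem _ _ h3)

theorem vec6_eta (d : Fin 6 → H4) : d = ![d 0, d 1, d 2, d 3, d 4, d 5] := by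
  funext i
  fin_cases i <;> rfl

theorem toH4_unit_ne_zero (a : Fˣ) : toH4 hF ω hω (a : F) ≠ 0 := by
  rw [ne_eq, EmbeddingLike.map_eq_zero_iff]
  exact a.ne_zero

include hF hω in
/-- diagonal automorphisms are scalars. -/
theorem diag_scalar (c : Fin 6 → Fˣ) (h : Pres (hexacode F ω) 1 c) (i j : Fin 6) : c i = c j := by
  rw [pres_iff_hchk hF ω hω, vec6_eta (fun i => toH4 hF ω hω (c i : F))] at h
  obtain ⟨h1, h2, h3, h4, h5⟩ := hchk_diag _ _ _ _ _ _ (toH4_unit_ne_zero hF ω hω _)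
    (toH4_unit_ne_zero hF ω hω _) (toH4_unit_ne_zero hF ω hω _) (toH4_unit_ne_zero hF ω hω _)
    (toH4_unit_ne_zero hF ω hω _) (toH4_unit_ne_zero hF ω hω _) h
  have key : ∀ k : Fin 6, c k = c 0 := by
    intro k
    apply Units.ext
    apply (toH4 hF ω hω).injective
    fin_cases k
    · rfl
    · exact h1
    · exact h2
    · exact h3
    · exact h4
    · exact h5
  rw [key i, key j]

include hF hω in
theorem swap_not_mem : Equiv.swap (0 : Fin 6) 1 ∉ permPart (hexacode F ω) := by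
  rintro ⟨c, h⟩
  rw [pres_iff_hchk hF ω hω, vec6_eta (fun i => toH4 hF ω hω (c i : F))] at h
  exact hchk_swap _ _ _ _ _ _ (toH4_unit_ne_zero hF ω hω _)
    (toH4_unit_ne_zero hF ω hω _) (toH4_unit_ne_zero hF ω hω _) (toH4_unit_ne_zero hF ω hω _)
    (toH4_unit_ne_zero hF ω hω _) (toH4_unit_ne_zero hF ω hω _) h

include hF hω in
theorem three_cycle_mem {σ : Equiv.Perm (Fin 6)} (hσ : σ.IsThreeCycle) :
    σ ∈ permPart (hexacode F ω) := by
  obtain ⟨d1, d2, d3, d4, d5, n1, n2, n3, n4, n5, h⟩ := hchk_three σ (card_support_eq_three_iff.2 hσ)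
  have hne : ∀ i, (![1, d1, d2, d3, d4, d5] : Fin 6 → H4) i ≠ 0 := by
    intro i
    fin_cases i
    · exact one_ne_zero
    · exact n1
    · exact n2
    · exact n3
    · exact n4
    · exact n5
  refine ⟨fun i => Units.mk0 ((toH4 hF ω hω).symm ((![1, d1, d2, d3, d4, d5] : Fin 6 → H4) i)) ?_, ?_⟩
  · rw [ne_eq, EmbeddingLike.map_eq_zero_iff]; exact hne i
  · rw [pres_iff_hchk hF ω hω]
    simp only [Units.val_mk0, RingEquiv.apply_symm_apply]
    exact h

include hF hω in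
theorem permPart_eq : permPart (hexacode F ω) = alternatingGroup (Fin 6) := by
  have hle : alternatingGroup (Fin 6) ≤ permPart (hexacode F ω) := by
    rw [← Equiv.Perm.closure_three_cycles_eq_alternating, Subgroup.closure_le]
    intro σ hσ
    exact three_cycle_mem hF ω hω hσ
  apply le_antisymm _ hle
  intro σ hσ
  by_contra hodd
  rw [Equiv.Perm.mem_alternatingGroup] at hodd
  have hs : Equiv.Perm.sign σ = -1 := (Int.units_eq_one_or _).resolve_left hodd
  have h1 : Equiv.swap (0 : Fin 6) 1 * σ ∈ alternatingGroup (Fin 6) := by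
    rw [Equiv.Perm.mem_alternatingGroup, map_mul, hs, Equiv.Perm.sign_swap (by decide)]
    rfl
  have h2 := (permPart (hexacode F ω)).mul_mem (hle h1) ((permPart (hexacode F ω)).inv_mem hσ)
  rw [mul_inv_cancel_right] at h2
  exact swap_not_mem hF ω hω h2

include hF hω in
theorem card_pres [DecidableEq F] :
    Nat.card {f : Equiv.Perm (Fin 6) × (Fin 6 → Fˣ) // Pres (hexacode F ω) f.1 f.2} = 1080 := by
  classical
  have hch : ∀ σ : permPart (hexacode F ω), ∃ c, Pres (hexacode F ω) σ.1 c := fun σ => σ.2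
  choose c0 hc0 using hch
  let φ : permPart (hexacode F ω) × Fˣ →
      {f : Equiv.Perm (Fin 6) × (Fin 6 → Fˣ) // Pres (hexacode F ω) f.1 f.2} :=
    fun p => ⟨(p.1.1, fun i => p.2 * c0 p.1 i), (hc0 p.1).smul p.2⟩
  have hφ : Function.Bijective φ := by
    constructor
    · rintro ⟨σ, l⟩ ⟨σ', l'⟩ h
      have h1 := congrArg Subtype.val h
      have h2 : σ.1 = σ'.1 := congrArg Prod.fst h1
      have h3 : σ = σ' := Subtype.ext h2
      subst h3
      have h4 : (fun i => l * c0 σ i) = fun i => l' * c0 σ i := congrArg Prod.snd h1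
      have h5 := congrFun h4 0
      rw [mul_right_cancel h5]
    · rintro ⟨⟨σ, c⟩, h⟩
      have hσ : σ ∈ permPart (hexacode F ω) := ⟨c, h⟩
      have h1 := Pres.mul h (hc0 ⟨σ, hσ⟩).inv
      have h2 : Pres (hexacode F ω) 1 (fun i => c i * (c0 ⟨σ, hσ⟩ i)⁻¹) := by
        have e1 : σ * σ⁻¹ = 1 := mul_inv_cancel σ
        have e2 : (fun i => c i * (c0 ⟨σ, hσ⟩ (σ (σ.symm i)))⁻¹) =
            fun i => c i * (c0 ⟨σ, hσ⟩ i)⁻¹ := by
          funext i; rw [Equiv.apply_symm_apply]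
        rw [← e1, ← e2]
        exact h1
      refine ⟨(⟨σ, hσ⟩, c 0 * (c0 ⟨σ, hσ⟩ 0)⁻¹), ?_⟩
      apply Subtype.ext
      show (σ, fun i => c 0 * (c0 ⟨σ, hσ⟩ 0)⁻¹ * c0 ⟨σ, hσ⟩ i) = (σ, c)
      congr 1
      funext i
      rw [diag_scalar hF ω hω _ h2 0 i, inv_mul_cancel_right]
  rw [← Nat.card_congr (Equiv.ofBijective φ hφ), Nat.card_prod, permPart_eq hF ω hω,
    Nat.card_eq_fintype_card, Nat.card_eq_fintype_card, Fintype.card_units, hF]
  have h2 := two_mul_card_alternatingGroup (α := Fin 6)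
  rw [Fintype.card_perm, Fintype.card_fin] at h2
  have h3 : Nat.factorial 6 = 720 := rfl
  rw [h3] at h2
  have h4 : Fintype.card ↥(alternatingGroup (Fin 6)) = 360 := by omega
  rw [h4]

end

end Cfsg.Agent.Lib.Helper27
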