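import Cfsg.Agent.Lib.Helper27.DFlag
import Cfsg.Agent.Lib.Helper27.M12Order
import Cfsg.Agent.Lib.Helper27.StabOrders
import Cfsg.Agent.Lib.Helper27.Tests
import Cfsg.Agent.Lib.Helper27.WDual
import Cfsg.Prelude.Def_SporadicCombinatorics

/-!
# Quartets of a dodecad: standard position, uniqueness of the quartet through two triples
-/

set_option autoImplicit false

namespace Cfsg.Agent.Lib.Helper27

open Cfsg
open scoped Pointwise

/-- the 132 hexads of the standard dodecad, each with an octad cutting it out -/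
def hexPairs : List (ℕ × ℕ) := [(343, 1065303), (591, 4196943), (797, 10486557), (858, 525274), (4127, 5279), (4430, 2232654),
  (4441, 39257), (4691, 8524371), (4700, 21116), (4875, 1053483), (4886, 4231958), (4933, 530245),
  (8285, 663645), (8478, 10558), (8523, 8398155), (8731, 57883), (8790, 2106966), (8967, 140167),
  (9036, 1090380), (9041, 4203377), (12359, 45159), (12378, 5255258), (12557, 4223245), (12563, 2634003),
  (12628, 8401364), (12814, 8925710), (12821, 1063445), (12873, 2110153), (13080, 145176), (13122, 31554),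
  (65627, 2162811), (65807, 622863), (65884, 4261212), (66078, 1245726), (66133, 99029), (66323, 69395),
  (66374, 8455014), (66377, 213833), (69709, 9506893), (69718, 596054), (69909, 201013), (69914, 8474906),
  (69955, 4264387), (70151, 2183687), (70169, 4788761), (70218, 104010), (70412, 72588), (70480, 3216208),
  (73751, 12656663), (73806, 90318), (74009, 1122713), (74053, 2173253), (74066, 237906), (74253, 75309),
  (74307, 1647171), (74328, 8464984), (74506, 6365962), (74516, 615188), (77835, 210955), (77852, 2207772),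
  (77905, 95313), (78086, 1127686), (78152, 602472), (78354, 78514), (78404, 4403780), (78593, 8499969),
  (262238, 8683614), (262427, 4587803), (262477, 262637), (262679, 786999), (262745, 1312345), (262926, 280334),
  (262979, 2392899), (262996, 396116), (266315, 806987), (266325, 6557781), (266503, 8657159), (266524, 1839388),
  (266578, 267634), (266765, 430605), (266778, 2365978), (266822, 1315526), (267025, 283537), (267080, 12849992),
  (270351, 3416079), (270419, 272595), (270613, 304405), (270662, 4989254), (270680, 2384216), (270876, 4465308),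
  (270917, 8675909), (270922, 402026), (271113, 797449), (271122, 9708306), (274454, 421910), (274457, 8663097),
  (274508, 277580), (274698, 307594), (274753, 1454401), (274947, 4470275), (275024, 832080), (275204, 2372388),
  (327709, 346141), (327751, 459847), (327958, 2425238), (328010, 1378634), (328017, 9240913), (328203, 8716939),
  (328268, 2949708), (328274, 4538962), (328453, 5571333), (328472, 361272), (331790, 4526126), (331795, 1413139),
  (331864, 463064), (332041, 2430217), (332100, 381252), (332308, 8721940), (332353, 334433), (332546, 987906),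
  (335898, 861210), (335945, 4563017), (335956, 1384564), (336131, 352547), (336140, 8855820), (336390, 371206),
  (336401, 2564625), (336704, 337856), (339973, 864389), (340034, 10825794), (340240, 4536592), (340488, 1405448)]

def isHexB (h : ℕ) : Bool := anyList (fun p => Nat.beq p.1 h) hexPairs

theorem hexPairs_check : allList (fun p => band (isCode p.2) (band (Nat.beq (pc p.2) 8)
    (band (Nat.beq (Nat.land p.2 340831) p.1) (Nat.beq (pc p.1) 6)))) hexPairs = true := by
  decide +kernel

theorem hex_complete : ∀ m, isCode m = true →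
    (bor (bnot (band (Nat.beq (pc m) 8) (Nat.beq (pc (Nat.land m 340831)) 6)))
      (isHexB (Nat.land m 340831))) = true :=
  forall_isCode _ (by decide +kernel)

theorem of_bor_bnot {a b : Bool} (h : bor (bnot a) b = true) (ha : a = true) : b = true := by
  subst ha; simpa using h

theorem band_true {a b : Bool} (ha : a = true) (hb : b = true) : band a b = true := by
  subst ha; subst hb; rfl

theorem beq_of_eq {a b : ℕ} (h : a = b) : Nat.beq a b = true := by rw [Nat.beq_eq]; exact h

theorem mem_hexadsOn_std (s : Finset GolayPt) :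
    s ∈ hexadsOn (unmask 340831) ↔ isHexB (mask s) = true := by
  constructor
  · rintro ⟨hc, o, ho, rfl⟩
    obtain ⟨h1, h2⟩ := (mem_octads_iff o).1 ho
    have h4 : pc (mask o &&& 340831) = 6 := by
      rw [← hc, card_eq_pc, mask_inter, mask_unmask (by norm_num)]
    rw [mask_inter, mask_unmask (by norm_num)]
    exact of_bor_bnot (hex_complete _ h1) (band_true (beq_of_eq h2) (beq_of_eq h4))
  · intro h
    obtain ⟨p, hp, hb⟩ := (anyList_iff _ _).1 h
    have hc := (allList_iff _ _).1 hexPairs_check p hp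
    simp only [band_eq, Bool.and_eq_true, Nat.beq_eq] at hc hb
    obtain ⟨c1, c2, c3, c4⟩ := hc
    refine ⟨by rw [card_eq_pc, ← hb, c4], unmask p.2, (mem_octads_iff _).2
      ⟨by rw [mask_unmask (isCode_lt c1)]; exact c1, by rw [mask_unmask (isCode_lt c1)]; exact c2⟩, ?_⟩
    apply mask_injective
    rw [mask_inter, mask_unmask (isCode_lt c1), mask_unmask (by norm_num), ← hb]
    exact c3

theorem smul_mem_hexadsOn {g : Equiv.Perm GolayPt} (hg : g ∈ M24) {d h : Finset GolayPt}
    (hh : h ∈ hexadsOn d) : g • h ∈ hexadsOn (g • d) := by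
  obtain ⟨hc, o, ho, rfl⟩ := hh
  exact ⟨by rw [Finset.card_smul_finset]; exact hc, g • o, smul_mem_octads hg ho,
    by rw [Finset.smul_finset_inter]⟩

theorem smul_mem_quartets {g : Equiv.Perm GolayPt} (hg : g ∈ M24) {d : Finset GolayPt}
    {Q : Finset (Finset GolayPt)} (hQ : Q ∈ quartets d) : g • Q ∈ quartets (g • d) := by
  obtain ⟨h1, h2, h3⟩ := hQ
  refine ⟨by rw [Finset.card_smul_finset]; exact h1, ?_, ?_⟩
  · intro t ht
    obtain ⟨t', ht', rfl⟩ := Finset.mem_smul_finset.1 ht
    exact ⟨by rw [Finset.card_smul_finset]; exact (h2 t' ht').1,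
      Finset.smul_finset_subset_smul_finset (h2 t' ht').2⟩
  · intro t ht u hu htu
    obtain ⟨t', ht', rfl⟩ := Finset.mem_smul_finset.1 ht
    obtain ⟨u', hu', rfl⟩ := Finset.mem_smul_finset.1 hu
    rw [← Finset.smul_finset_union]
    exact smul_mem_hexadsOn hg (h3 t' ht' u' hu' (fun e => htu (by rw [e])))

theorem quartet_disjoint {d : Finset GolayPt} {Q : Finset (Finset GolayPt)} (hQ : Q ∈ quartets d)
    {t u : Finset GolayPt} (ht : t ∈ Q) (hu : u ∈ Q) (h : t ≠ u) : Disjoint t u := by
  have h6 := (hQ.2.2 t ht u hu h).1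
  have := Finset.card_union_add_card_inter t u
  rw [h6, (hQ.2.1 t ht).1, (hQ.2.1 u hu).1] at this
  rw [Finset.disjoint_iff_inter_eq_empty, ← Finset.card_eq_zero]
  omega

/-- the family of sets with the given masks -/
def Qof (l : List ℕ) : Finset (Finset GolayPt) := (l.map unmask).toFinset

theorem mem_Qof {l : List ℕ} {t : Finset GolayPt} : t ∈ Qof l ↔ ∃ a ∈ l, unmask a = t := by
  simp [Qof]

/-- Boolean test for a list of masks to be a quartet of the standard dodecad -/
def quartB (l : List ℕ) : Bool :=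
  allList (fun a => band (Nat.blt a 16777216) (band (Nat.beq (pc a) 3)
    (band (Nat.beq (Nat.land a 340831) a)
      (allList (fun b => bor (Nat.beq a b) (isHexB (Nat.lor a b))) l)))) l

theorem Qof_mem_quartets {l : List ℕ} (h : quartB l = true) (hn : l.Nodup) (hl : l.length = 4) :
    Qof l ∈ quartets (unmask 340831) := by
  have h' := (allList_iff _ _).1 h
  have key : ∀ a ∈ l, a < 2 ^ 24 ∧ pc a = 3 ∧ a &&& 340831 = a ∧
      ∀ b ∈ l, a = b ∨ isHexB (a ||| b) = true := by
    intro a ha
    have := h' a ha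
    simp only [band_eq, Bool.and_eq_true, Nat.beq_eq, Nat.blt_eq] at this
    obtain ⟨c1, c2, c3, c4⟩ := this
    refine ⟨c1, c2, c3, fun b hb => ?_⟩
    have := (allList_iff _ _).1 c4 b hb
    simp only [bor_eq, Bool.or_eq_true, Nat.beq_eq] at this
    exact this
  refine ⟨?_, ?_, ?_⟩
  · unfold Qof
    rw [List.toFinset_card_of_nodup, List.length_map, hl]
    exact List.Nodup.map_on (fun a ha b hb e => unmask_injOn (key a ha).1 (key b hb).1 e) hn
  · intro t ht
    obtain ⟨a, ha, rfl⟩ := mem_Qof.1 ht
    obtain ⟨c1, c2, c3, _⟩ := key a ha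
    refine ⟨by rw [card_unmask, c2], ?_⟩
    rw [subset_iff_mask, mask_unmask c1, mask_unmask (by norm_num)]
    exact c3
  · intro t ht u hu htu
    obtain ⟨a, ha, rfl⟩ := mem_Qof.1 ht
    obtain ⟨b, hb, rfl⟩ := mem_Qof.1 hu
    rw [mem_hexadsOn_std, mask_union, mask_unmask (key a ha).1, mask_unmask (key b hb).1]
    rcases (key a ha).2.2.2 b hb with e | e
    · exact absurd (by rw [e]) htu
    · exact e

def q4 : List ℕ := [7, 4120, 8960, 327744]

/-- the standard quartet -/
def Q0 : Finset (Finset GolayPt) := Qof q4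

theorem Q0_mem : Q0 ∈ quartets (unmask 340831) :=
  Qof_mem_quartets (by decide +kernel) (by decide) rfl

theorem third_check : allList (fun p => bor (bnot (band (Nat.beq (Nat.land 7 p.1) 7)
    (isHexB (Nat.lor 4120 (Nat.xor p.1 (Nat.land p.1 7))))))
    (bor (Nat.beq (Nat.xor p.1 (Nat.land p.1 7)) 8960)
      (Nat.beq (Nat.xor p.1 (Nat.land p.1 7)) 327744))) hexPairs = true := by decide +kernel

theorem std_third {v : Finset GolayPt} (h1 : Disjoint (unmask 7) v)
    (h2 : unmask 7 ∪ v ∈ hexadsOn (unmask 340831))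
    (h3 : unmask 4120 ∪ v ∈ hexadsOn (unmask 340831)) : v = unmask 8960 ∨ v = unmask 327744 := by
  rw [mem_hexadsOn_std] at h2 h3
  obtain ⟨p, hp, hb⟩ := (anyList_iff _ _).1 h2
  rw [Nat.beq_eq] at hb
  have ev : mask v = p.1 ^^^ (p.1 &&& 7) := by
    rw [hb]
    conv_lhs => rw [← Finset.union_sdiff_cancel_left h1]
    rw [mask_sdiff, mask_unmask (by norm_num)]
  have e7 : 7 &&& p.1 = 7 := by
    have := subset_iff_mask.1 (Finset.subset_union_left (s₁ := unmask 7) (s₂ := v))
    rwa [mask_unmask (by norm_num), ← hb] at this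
  rw [mask_union, mask_unmask (by norm_num), ev] at h3
  have := of_bor_bnot ((allList_iff _ _).1 third_check p hp) (band_true (beq_of_eq e7) h3)
  simp only [bor_eq, Bool.or_eq_true, Nat.beq_eq] at this
  rcases this with e | e
  · left; rw [eq_unmask_iff (by norm_num), ev]; exact e
  · right; rw [eq_unmask_iff (by norm_num), ev]; exact e

theorem quartet_std_unique {Q : Finset (Finset GolayPt)} (hQ : Q ∈ quartets (unmask 340831))
    (h1 : unmask 7 ∈ Q) (h2 : unmask 4120 ∈ Q) : Q = Q0 := by
  apply Finset.eq_of_subset_of_card_le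
  · intro v hv
    rw [Q0, mem_Qof]
    by_cases e1 : v = unmask 7
    · exact ⟨7, by simp [q4], e1.symm⟩
    by_cases e2 : v = unmask 4120
    · exact ⟨4120, by simp [q4], e2.symm⟩
    rcases std_third (quartet_disjoint hQ h1 hv (Ne.symm e1)) (hQ.2.2 _ h1 _ hv (Ne.symm e1))
      (hQ.2.2 _ h2 _ hv (Ne.symm e2)) with h | h
    · exact ⟨8960, by simp [q4], h.symm⟩
    · exact ⟨327744, by simp [q4], h.symm⟩
  · rw [hQ.1, Q0_mem.1]

theorem eq_unmask_of_subset {s : Finset GolayPt} {m : ℕ} (h : unmask m ⊆ s) (hc : s.card ≤ pc m) :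
    s = unmask m :=
  (Finset.eq_of_subset_of_card_le h (by rw [card_unmask]; exact hc)).symm

theorem mem_unmask_31 : ∀ p ∈ unmask 31, p = pt 0 ∨ p = pt 1 ∨ p = pt 2 ∨ p = pt 3 ∨ p = pt 4 := by
  decide +kernel

theorem mem_unmask_7 : ∀ p ∈ unmask 7, p = pt 0 ∨ p = pt 1 ∨ p = pt 2 := by
  decide +kernel

theorem hex31_check : allList (fun p => bor (bnot (Nat.beq (Nat.land 31 p.1) 31))
    (Nat.beq p.1 4127)) hexPairs = true := by decide +kernel

/-- two disjoint triples whose union is a hexad can be moved to standard position -/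
theorem pair_to_std {d : Finset GolayPt} (hd : d ∈ dodecads) {t u : Finset GolayPt}
    (ht : t.card = 3) (hu : u.card = 3) (htu : Disjoint t u) (hh : t ∪ u ∈ hexadsOn d) :
    ∃ g ∈ M24, g • d = unmask 340831 ∧ g • t = unmask 7 ∧ g • u = unmask 4120 := by
  obtain ⟨x1, x2, x3, n12, n13, n23, et⟩ := Finset.card_eq_three.1 ht
  obtain ⟨x4, x5, x6, n45, n46, n56, eu⟩ := Finset.card_eq_three.1 hu
  have hsub : ∀ x ∈ t ∪ u, x ∈ d := by
    obtain ⟨_, o, _, ho⟩ := hh
    intro x hx
    rw [← ho] at hx
    exact (Finset.mem_inter.1 hx).2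
  have m1 : x1 ∈ t := by rw [et]; simp
  have m2 : x2 ∈ t := by rw [et]; simp
  have m3 : x3 ∈ t := by rw [et]; simp
  have m4 : x4 ∈ u := by rw [eu]; simp
  have m5 : x5 ∈ u := by rw [eu]; simp
  have hne := Finset.disjoint_iff_ne.1 htu
  obtain ⟨g, hg, hm⟩ := dflag5 hd (hsub _ (Finset.mem_union_left _ m1))
    (hsub _ (Finset.mem_union_left _ m2)) (hsub _ (Finset.mem_union_left _ m3))
    (hsub _ (Finset.mem_union_right _ m4)) (hsub _ (Finset.mem_union_right _ m5))
    n12 n13 (hne _ m1 _ m4) (hne _ m1 _ m5) n23 (hne _ m2 _ m4) (hne _ m2 _ m5)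
    (hne _ m3 _ m4) (hne _ m3 _ m5) n45
  simp only [D5, maps_cons] at hm
  obtain ⟨e5, e4, e3, e2, e1, ed, _⟩ := hm
  rw [smul_singleton_eq (by norm_num)] at e1 e2 e3 e4 e5
  have et' : g • t = unmask 7 := by
    apply eq_unmask_of_subset
    · intro p hp
      rcases mem_unmask_7 p hp with rfl | rfl | rfl
      · rw [← e1, smul_mem_smul_iff]; exact m1
      · rw [← e2, smul_mem_smul_iff]; exact m2
      · rw [← e3, smul_mem_smul_iff]; exact m3
    · rw [Finset.card_smul_finset, ht]; decide +kernel
  have hH := smul_mem_hexadsOn hg hh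
  rw [ed, mem_hexadsOn_std] at hH
  obtain ⟨p, hp, hb⟩ := (anyList_iff _ _).1 hH
  rw [Nat.beq_eq] at hb
  have h31 : unmask 31 ⊆ g • (t ∪ u) := by
    intro p hp
    rcases mem_unmask_31 p hp with rfl | rfl | rfl | rfl | rfl
    · rw [← e1, smul_mem_smul_iff]; exact Finset.mem_union_left _ m1
    · rw [← e2, smul_mem_smul_iff]; exact Finset.mem_union_left _ m2
    · rw [← e3, smul_mem_smul_iff]; exact Finset.mem_union_left _ m3
    · rw [← e4, smul_mem_smul_iff]; exact Finset.mem_union_right _ m4
    · rw [← e5, smul_mem_smul_iff]; exact Finset.mem_union_right _ m5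
  rw [subset_iff_mask, mask_unmask (by norm_num), ← hb] at h31
  have h4127 := of_bor_bnot ((allList_iff _ _).1 hex31_check p hp) (beq_of_eq h31)
  rw [Nat.beq_eq] at h4127
  refine ⟨g, hg, ed, et', ?_⟩
  have : g • u = g • (t ∪ u) \ g • t := by
    rw [← Finset.smul_finset_sdiff, Finset.union_sdiff_cancel_left htu]
  rw [this, eq_unmask_iff (by norm_num), mask_sdiff, ← hb, h4127, et', mask_unmask (by norm_num)]
  decide

/-- every quartet can be moved to the standard one -/
theorem quartet_to_std {d : Finset GolayPt} (hd : d ∈ dodecads) {Q : Finset (Finset GolayPt)}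
    (hQ : Q ∈ quartets d) : ∃ g ∈ M24, g • d = unmask 340831 ∧ g • Q = Q0 := by
  obtain ⟨t, ht, u, hu, htu⟩ := Finset.one_lt_card.1 (by rw [hQ.1]; norm_num : 1 < Q.card)
  obtain ⟨g, hg, ed, et, eu⟩ := pair_to_std hd (hQ.2.1 t ht).1 (hQ.2.1 u hu).1
    (quartet_disjoint hQ ht hu htu) (hQ.2.2 t ht u hu htu)
  refine ⟨g, hg, ed, quartet_std_unique ?_ ?_ ?_⟩
  · rw [← ed]; exact smul_mem_quartets hg hQ
  · rw [← et]; exact Finset.smul_mem_smul_finset ht
  · rw [← eu]; exact Finset.smul_mem_smul_finset hu

theorem two_triples_quartet (d : Finset GolayPt) (hd : d ∈ dodecads) (t u : Finset GolayPt)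
    (ht : t.card = 3) (hu : u.card = 3) (htu : Disjoint t u) (hh : t ∪ u ∈ hexadsOn d) :
    ∃! Q : Finset (Finset GolayPt), Q ∈ quartets d ∧ t ∈ Q ∧ u ∈ Q := by
  obtain ⟨g, hg, ed, et, eu⟩ := pair_to_std hd ht hu htu hh
  refine ⟨g⁻¹ • Q0, ⟨?_, ?_, ?_⟩, ?_⟩
  · have := smul_mem_quartets (M24.inv_mem hg) Q0_mem
    rwa [← ed, inv_smul_smul] at this
  · rw [← inv_smul_smul g t, et]
    exact Finset.smul_mem_smul_finset (mem_Qof.2 ⟨7, by simp [q4], rfl⟩)
  · rw [← inv_smul_smul g u, eu]
    exact Finset.smul_mem_smul_finset (mem_Qof.2 ⟨4120, by simp [q4], rfl⟩)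
  · rintro Q ⟨hQ, h1, h2⟩
    rw [eq_inv_smul_iff]
    apply quartet_std_unique
    · rw [← ed]; exact smul_mem_quartets hg hQ
    · rw [← et]; exact Finset.smul_mem_smul_finset h1
    · rw [← eu]; exact Finset.smul_mem_smul_finset h2

end Cfsg.Agent.Lib.Helper27
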