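import Cfsg.Agent.Lib.Helper27.QuartetGroup

/-!
# The quartet stabiliser maps onto `GL(2,3)` with kernel of order 9
(affine action on the orbit of nine points outside the dodecad)
-/

set_option autoImplicit false

namespace Cfsg.Agent.Lib.Helper27

open Cfsg
open scoped Pointwise

abbrev V3 : Type := ZMod 3 × ZMod 3

/-- index of the point with affine label `(x, y)` -/
def ptI (v : V3) : ℕ := [5, 19, 15, 22, 11, 23, 21, 14, 20].getD (v.1.val + 3 * v.2.val) 0

/-- affine label of the point of index `i` -/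
def labI : ℕ → V3
  | 5 => (0, 0) | 19 => (1, 0) | 15 => (2, 0)
  | 22 => (0, 1) | 11 => (1, 1) | 23 => (2, 1)
  | 21 => (0, 2) | 14 => (1, 2) | 20 => (2, 2)
  | _ => (0, 0)

theorem labI_ptI : ∀ v : V3, labI (ptI v) = v := by decide

theorem ptI_lt : ∀ v : V3, ptI v < 24 := by decide

def codeAct (c : ℕ) (v : V3) : V3 := labI (ent c (ptI v))

theorem code_nine : ∀ c ∈ kList, ∀ v : V3, ptI (codeAct c v) = ent c (ptI v) := by decide +kernel

theorem code_affine : ∀ c ∈ kList, ∀ v : V3, codeAct c v =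
    codeAct c (0, 0) + v.1 • (codeAct c (1, 0) - codeAct c (0, 0)) +
      v.2 • (codeAct c (0, 1) - codeAct c (0, 0)) := by decide +kernel

def actG (g : Equiv.Perm GolayPt) (v : V3) : V3 := labI (idx (g (pt (ptI v))))

theorem actG_permOf {c : ℕ} (hv : validCode c = true) (v : V3) : actG (permOf c) v = codeAct c v := by
  unfold actG codeAct
  rw [idx_permOf_apply hv, idx_pt (ptI_lt v)]

def uG (g : Equiv.Perm GolayPt) : V3 := actG g (1, 0) - actG g (0, 0)
def wG (g : Equiv.Perm GolayPt) : V3 := actG g (0, 1) - actG g (0, 0)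

theorem actG_affine {g : Equiv.Perm GolayPt} (hg : g ∈ KQ) (v : V3) :
    actG g v = actG g (0, 0) + v.1 • uG g + v.2 • wG g := by
  obtain ⟨c, hc, rfl⟩ := exists_code hg
  unfold uG wG
  simp only [actG_permOf (kList_valid hc)]
  exact code_affine c hc v

theorem actG_nine {g : Equiv.Perm GolayPt} (hg : g ∈ KQ) (v : V3) :
    pt (ptI (actG g v)) = g (pt (ptI v)) := by
  obtain ⟨c, hc, rfl⟩ := exists_code hg
  rw [actG_permOf (kList_valid hc), code_nine c hc v, permOf_apply (kList_valid hc),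
    idx_pt (ptI_lt v)]

theorem actG_mul (g : Equiv.Perm GolayPt) {h : Equiv.Perm GolayPt} (hh : h ∈ KQ) (v : V3) :
    actG (g * h) v = actG g (actG h v) := by
  unfold actG
  rw [Equiv.Perm.mul_apply]
  congr 3
  exact (actG_nine hh v).symm

theorem actG_one (v : V3) : actG 1 v = v := by
  unfold actG
  rw [Equiv.Perm.one_apply, idx_pt (ptI_lt v), labI_ptI]

def matG (g : Equiv.Perm GolayPt) : Matrix (Fin 2) (Fin 2) (ZMod 3) :=
  !![(uG g).1, (wG g).1; (uG g).2, (wG g).2]

theorem uG_mul {g h : Equiv.Perm GolayPt} (hg : g ∈ KQ) (hh : h ∈ KQ) :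
    uG (g * h) = (uG h).1 • uG g + (uG h).2 • wG g := by
  have e : uG (g * h) = actG (g * h) (1, 0) - actG (g * h) (0, 0) := rfl
  have e2 : uG h = actG h (1, 0) - actG h (0, 0) := rfl
  rw [e, e2, actG_mul g hh, actG_mul g hh, actG_affine hg (actG h (1, 0)),
    actG_affine hg (actG h (0, 0))]
  simp only [Prod.fst_sub, Prod.snd_sub, sub_smul]
  abel

theorem wG_mul {g h : Equiv.Perm GolayPt} (hg : g ∈ KQ) (hh : h ∈ KQ) :
    wG (g * h) = (wG h).1 • uG g + (wG h).2 • wG g := by
  have e : wG (g * h) = actG (g * h) (0, 1) - actG (g * h) (0, 0) := rfl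
  have e2 : wG h = actG h (0, 1) - actG h (0, 0) := rfl
  rw [e, e2, actG_mul g hh, actG_mul g hh, actG_affine hg (actG h (0, 1)),
    actG_affine hg (actG h (0, 0))]
  simp only [Prod.fst_sub, Prod.snd_sub, sub_smul]
  abel

theorem matG_mul {g h : Equiv.Perm GolayPt} (hg : g ∈ KQ) (hh : h ∈ KQ) :
    matG (g * h) = matG g * matG h := by
  unfold matG
  rw [Matrix.mul_fin_two, uG_mul hg hh, wG_mul hg hh]
  simp only [Prod.fst_add, Prod.snd_add, Prod.smul_fst, Prod.smul_snd, smul_eq_mul]
  congr 1 <;> (ext i j; fin_cases i <;> fin_cases j <;> simp <;> ring)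

theorem matG_one : matG 1 = 1 := by
  unfold matG uG wG
  simp only [actG_one]
  rw [Matrix.one_fin_two]
  simp

theorem matG_eq_one_iff (g : Equiv.Perm GolayPt) : matG g = 1 ↔ uG g = (1, 0) ∧ wG g = (0, 1) := by
  unfold matG
  rw [Matrix.one_fin_two]
  constructor
  · intro h
    have h00 := congrFun (congrFun h 0) 0
    have h01 := congrFun (congrFun h 0) 1
    have h10 := congrFun (congrFun h 1) 0
    have h11 := congrFun (congrFun h 1) 1
    simp at h00 h01 h10 h11
    exact ⟨Prod.ext h00 h10, Prod.ext h01 h11⟩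
  · rintro ⟨h1, h2⟩
    rw [h1, h2]

/-- the linear part -/
noncomputable def linKQ : KQ →* GL (Fin 2) (ZMod 3) :=
  MonoidHom.toHomUnits
    { toFun := fun g => matG g.1
      map_one' := matG_one
      map_mul' := fun g h => matG_mul g.2 h.2 }

theorem linKQ_eq_one_iff (g : KQ) : linKQ g = 1 ↔ matG g.1 = 1 := by
  rw [Units.ext_iff]
  rfl

theorem card_ker_linKQ : Nat.card linKQ.ker = 9 := by
  have h := ncard_KQ_filter (fun g => matG g = 1)
    (fun c => decide (codeAct c (1, 0) - codeAct c (0, 0) = (1, 0) ∧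
      codeAct c (0, 1) - codeAct c (0, 0) = (0, 1))) (by
    intro c hc
    rw [matG_eq_one_iff, decide_eq_true_iff]
    unfold uG wG
    simp only [actG_permOf (kList_valid hc)])
  have h9 : (kList.filter (fun c => decide (codeAct c (1, 0) - codeAct c (0, 0) = (1, 0) ∧
      codeAct c (0, 1) - codeAct c (0, 0) = (0, 1)))).length = 9 := by decide +kernel
  rw [h9] at h
  rw [← h, ← Nat.card_coe_set_eq]
  apply Nat.card_congr
  exact
    { toFun := fun x => ⟨x.1.1, x.1.2, (linKQ_eq_one_iff x.1).1 (MonoidHom.mem_ker.1 x.2)⟩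
      invFun := fun y => ⟨⟨y.1, y.2.1⟩, MonoidHom.mem_ker.2 ((linKQ_eq_one_iff _).2 y.2.2)⟩
      left_inv := fun _ => rfl
      right_inv := fun _ => rfl }

theorem card_GL23 : Nat.card (GL (Fin 2) (ZMod 3)) = 48 := by
  rw [Matrix.card_GL_field]
  simp [Fin.prod_univ_two, ZMod.card]

theorem linKQ_surjective : Function.Surjective linKQ := by
  rw [← MonoidHom.range_eq_top]
  apply Subgroup.eq_top_of_card_eq
  have h1 := Subgroup.card_mul_index linKQ.ker
  rw [Subgroup.index_ker, card_ker_linKQ, card_KQ] at h1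
  rw [card_GL23]
  omega

end Cfsg.Agent.Lib.Helper27
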