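import Cfsg.Agent.Lib.Helper27.QuartetGL

/-!
# Quartets of a dodecad: count, stabiliser structure, orbits of the stabiliser
-/

set_option autoImplicit false

namespace Cfsg.Agent.Lib.Helper27

open Cfsg
open scoped Pointwise

abbrev KdQ (d : Finset GolayPt) (Q : Finset (Finset GolayPt)) : Subgroup ↥M24 :=
  MulAction.stabilizer M24 d ⊓ MulAction.stabilizer M24 Q

theorem mem_KdQ {d : Finset GolayPt} {Q : Finset (Finset GolayPt)} {g : ↥M24} :
    g ∈ KdQ d Q ↔ (g : Equiv.Perm GolayPt) • d = d ∧ (g : Equiv.Perm GolayPt) • Q = Q := by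
  rw [Subgroup.mem_inf, MulAction.mem_stabilizer_iff, MulAction.mem_stabilizer_iff]
  rfl

theorem mem_KQ' {k : Equiv.Perm GolayPt} :
    k ∈ KQ ↔ k ∈ M24 ∧ k • unmask 340831 = unmask 340831 ∧ k • Q0 = Q0 := by
  unfold KQ
  rw [Subgroup.mem_inf, MulAction.mem_stabilizer_iff, mem_fixer]
  simp [D0, and_assoc]

section
variable {d : Finset GolayPt} {Q : Finset (Finset GolayPt)} {t : Equiv.Perm GolayPt}

/-- conjugation onto the standard quartet stabiliser -/
noncomputable def quartEquiv (ht : t ∈ M24) (ed : t • d = unmask 340831) (eQ : t • Q = Q0) :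
    KdQ d Q ≃* KQ where
  toFun g := ⟨t * (g : ↥M24) * t⁻¹, by
    obtain ⟨h1, h2⟩ := mem_KdQ.1 g.2
    refine mem_KQ'.2 ⟨M24.mul_mem (M24.mul_mem ht g.1.2) (M24.inv_mem ht), ?_, ?_⟩
    · rw [mul_smul, mul_smul, ← ed, inv_smul_smul, h1]
    · rw [mul_smul, mul_smul, ← eQ, inv_smul_smul, h2]⟩
  invFun k := ⟨⟨t⁻¹ * k * t, M24.mul_mem (M24.mul_mem (M24.inv_mem ht) (mem_KQ'.1 k.2).1) ht⟩, by
    obtain ⟨_, h1, h2⟩ := mem_KQ'.1 k.2
    refine mem_KdQ.2 ⟨?_, ?_⟩
    · show (t⁻¹ * (k : Equiv.Perm GolayPt) * t) • d = d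
      rw [mul_smul, mul_smul, ed, h1, ← ed, inv_smul_smul]
    · show (t⁻¹ * (k : Equiv.Perm GolayPt) * t) • Q = Q
      rw [mul_smul, mul_smul, eQ, h2, ← eQ, inv_smul_smul]⟩
  left_inv g := by
    apply Subtype.ext; apply Subtype.ext
    show t⁻¹ * (t * ((g : ↥M24) : Equiv.Perm GolayPt) * t⁻¹) * t = _
    group
  right_inv k := by
    apply Subtype.ext
    show t * (t⁻¹ * (k : Equiv.Perm GolayPt) * t) * t⁻¹ = _
    group
  map_mul' a b := by
    apply Subtype.ext
    show t * (((a : ↥M24) : Equiv.Perm GolayPt) * ((b : ↥M24) : Equiv.Perm GolayPt)) * t⁻¹ =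
      (t * ((a : ↥M24) : Equiv.Perm GolayPt) * t⁻¹) * (t * ((b : ↥M24) : Equiv.Perm GolayPt) * t⁻¹)
    group

theorem quartEquiv_coe (ht : t ∈ M24) (ed : t • d = unmask 340831) (eQ : t • Q = Q0) (g : KdQ d Q) :
    (quartEquiv ht ed eQ g : Equiv.Perm GolayPt) = t * ((g : ↥M24) : Equiv.Perm GolayPt) * t⁻¹ := rfl

theorem quartEquiv_symm_coe (ht : t ∈ M24) (ed : t • d = unmask 340831) (eQ : t • Q = Q0) (k : KQ) :
    (((quartEquiv ht ed eQ).symm k : ↥M24) : Equiv.Perm GolayPt) = t⁻¹ * (k : Equiv.Perm GolayPt) * t :=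
  rfl

end

theorem KQ_trans_check : allBelow (fun i => bor (bnot (tb 340831 i))
    (anyList (fun c => Nat.beq (ent c 0) i) kList)) 24 = true := by decide +kernel

theorem KQ_trans : ∀ q ∈ unmask 340831, ∃ k ∈ KQ, k (pt 0) = q := by
  intro q hq
  have h := of_bor_bnot ((allBelow_iff _ _).1 KQ_trans_check (idx q) (idx_lt q))
    (by rw [tb_eq]; exact (mem_unmask _ _).1 hq)
  obtain ⟨c, hc, e⟩ := (anyList_iff _ _).1 h
  rw [Nat.beq_eq] at e
  refine ⟨permOf c, permOf_mem_KQ hc, ?_⟩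
  rw [permOf_apply (kList_valid hc), idx_pt (by norm_num), e, pt_idx]

theorem quartet_stab_struct (d : Finset GolayPt) (hd : d ∈ dodecads) (Q : Finset (Finset GolayPt))
    (hQ : Q ∈ quartets d) :
    Nat.card ↥(MulAction.stabilizer M24 d ⊓ MulAction.stabilizer M24 Q) = 432 ∧
    (∃ (N : Subgroup ↥(MulAction.stabilizer M24 d ⊓ MulAction.stabilizer M24 Q)) (_ : N.Normal),
      Nat.card N = 9 ∧ Nonempty (↥(MulAction.stabilizer M24 d ⊓ MulAction.stabilizer M24 Q) ⧸ N ≃*
        GL (Fin 2) (ZMod 3))) ∧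
    ∀ p ∈ d, ∀ q ∈ d, ∃ g ∈ (MulAction.stabilizer M24 d ⊓ MulAction.stabilizer M24 Q),
      ((g : ↥M24) : Equiv.Perm GolayPt) p = q := by
  obtain ⟨t, ht, ed, eQ⟩ := quartet_to_std hd hQ
  set e := quartEquiv ht ed eQ with he
  refine ⟨(Nat.card_congr e.toEquiv).trans card_KQ, ?_, ?_⟩
  · have hf : Function.Surjective (linKQ.comp e.toMonoidHom) :=
      linKQ_surjective.comp e.surjective
    refine ⟨(linKQ.comp e.toMonoidHom).ker, inferInstance, ?_,
      ⟨QuotientGroup.quotientKerEquivOfSurjective _ hf⟩⟩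
    rw [← card_ker_linKQ]
    apply Nat.card_congr
    exact
      { toFun := fun x => ⟨e x.1, x.2⟩
        invFun := fun y => ⟨e.symm y.1, by
          show linKQ (e (e.symm y.1)) = 1
          rw [e.apply_symm_apply]; exact y.2⟩
        left_inv := fun x => Subtype.ext (e.symm_apply_apply x.1)
        right_inv := fun y => Subtype.ext (e.apply_symm_apply y.1) }
  · intro p hp q hq
    obtain ⟨k1, hk1, e1⟩ := KQ_trans _ (Maps.apply_mem ed hp)
    obtain ⟨k2, hk2, e2⟩ := KQ_trans _ (Maps.apply_mem ed hq)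
    refine ⟨(e.symm ⟨k2 * k1⁻¹, KQ.mul_mem hk2 (KQ.inv_mem hk1)⟩ : KdQ d Q).1, (e.symm _).2, ?_⟩
    rw [he, quartEquiv_symm_coe]
    show t⁻¹ (k2 (k1⁻¹ (t p))) = q
    rw [← e1, Equiv.Perm.inv_def, Equiv.Perm.inv_def, Equiv.symm_apply_apply, e2,
      Equiv.symm_apply_apply]

theorem ncard_quartets_std : (quartets (unmask 340831)).ncard = 220 := by
  have h := card_step (fixer D0) Q0 (quartets (unmask 340831)) (by
    intro y hy
    obtain ⟨g, hg, e1, e2⟩ := quartet_to_std (d := unmask 340831) unmask_stdDodecad_mem hy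
    refine ⟨g⁻¹, (fixer D0).inv_mem (mem_fixer.2 ⟨hg, by simpa [D0] using e1⟩), ?_⟩
    rw [← e2, inv_smul_smul]) (by
    intro g hg
    have := smul_mem_quartets hg.1 Q0_mem
    rwa [hg.2 _ (by simp [D0])] at this)
  have h2 : Nat.card ↥(fixer D0 ⊓ MulAction.stabilizer (Equiv.Perm GolayPt) Q0) = 432 := card_KQ
  rw [card_fixer_D0, h2] at h
  omega

theorem quartets_eq_image {d : Finset GolayPt} {t : Equiv.Perm GolayPt} (ht : t ∈ M24)
    (ed : t • d = unmask 340831) :
    quartets d = (fun X : Finset (Finset GolayPt) => t⁻¹ • X) '' quartets (unmask 340831) := by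
  ext X
  constructor
  · intro hX
    refine ⟨t • X, ?_, inv_smul_smul t X⟩
    rw [← ed]; exact smul_mem_quartets ht hX
  · rintro ⟨Y, hY, rfl⟩
    have := smul_mem_quartets (M24.inv_mem ht) hY
    rwa [← ed, inv_smul_smul] at this

theorem quartets_count_trans (d : Finset GolayPt) (hd : d ∈ dodecads) :
    (quartets d).ncard = 220 ∧ ∀ Q ∈ quartets d, ∀ Q' ∈ quartets d,
      ∃ g : Equiv.Perm GolayPt, g ∈ M24 ∧ g • d = d ∧ g • Q = Q' := by
  constructor
  · obtain ⟨t, ht, ed⟩ := dodecad_to_std hd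
    rw [quartets_eq_image ht ed, Set.ncard_image_of_injective _ (MulAction.injective t⁻¹),
      ncard_quartets_std]
  · intro Q hQ Q' hQ'
    obtain ⟨g, hg, e1, e2⟩ := quartet_to_std hd hQ
    obtain ⟨g', hg', e1', e2'⟩ := quartet_to_std hd hQ'
    refine ⟨g'⁻¹ * g, M24.mul_mem (M24.inv_mem hg') hg, ?_, ?_⟩
    · rw [mul_smul, e1, ← e1', inv_smul_smul]
    · rw [mul_smul, e2, ← e2', inv_smul_smul]

/-! ### orbits on quartets -/

theorem ncard_orbit_KQ (l : List ℕ) (hl : ∀ a ∈ l, a < 2 ^ 24) (n m : ℕ)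
    (hm : (kList.filter (fun c => mapsInto c l l)).length = m) (hn : n * m = 432) (hm0 : 0 < m) :
    (MulAction.orbit KQ (Qof l)).ncard = n := by
  have h := card_step KQ (Qof l) (MulAction.orbit KQ (Qof l)) (by
    rintro _ ⟨g, rfl⟩
    exact ⟨g.1, g.2, rfl⟩) (fun g hg => ⟨⟨g, hg⟩, rfl⟩)
  rw [card_KQ, card_KQ_inf_stab (Qof l) (fun c => mapsInto c l l)
    (fun c hc => Qof_fix_iff (kList_valid hc) hl), hm, ← hn] at h
  exact (Nat.eq_of_mul_eq_mul_right hm0 h).symm

def x1 : List ℕ := [7, 336, 70144, 270344]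
def x2 : List ℕ := [11, 4116, 8512, 328192]
def x3 : List ℕ := [11, 4864, 65616, 270340]
def x4 : List ℕ := [11, 580, 77824, 262416]

theorem orb0 : (MulAction.orbit KQ Q0).ncard = 1 :=
  ncard_orbit_KQ q4 (by decide) 1 432 (by decide +kernel) (by norm_num) (by norm_num)
theorem orb1 : (MulAction.orbit KQ (Qof x1)).ncard = 12 :=
  ncard_orbit_KQ x1 (by decide) 12 36 (by decide +kernel) (by norm_num) (by norm_num)
theorem orb2 : (MulAction.orbit KQ (Qof x2)).ncard = 27 :=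
  ncard_orbit_KQ x2 (by decide) 27 16 (by decide +kernel) (by norm_num) (by norm_num)
theorem orb3 : (MulAction.orbit KQ (Qof x3)).ncard = 72 :=
  ncard_orbit_KQ x3 (by decide) 72 6 (by decide +kernel) (by norm_num) (by norm_num)
theorem orb4 : (MulAction.orbit KQ (Qof x4)).ncard = 108 :=
  ncard_orbit_KQ x4 (by decide) 108 4 (by decide +kernel) (by norm_num) (by norm_num)

theorem x1_mem : Qof x1 ∈ quartets (unmask 340831) :=
  Qof_mem_quartets (by decide +kernel) (by decide) rfl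
theorem x2_mem : Qof x2 ∈ quartets (unmask 340831) :=
  Qof_mem_quartets (by decide +kernel) (by decide) rfl
theorem x3_mem : Qof x3 ∈ quartets (unmask 340831) :=
  Qof_mem_quartets (by decide +kernel) (by decide) rfl
theorem x4_mem : Qof x4 ∈ quartets (unmask 340831) :=
  Qof_mem_quartets (by decide +kernel) (by decide) rfl

theorem orbit_KQ_subset {X : Finset (Finset GolayPt)} (hX : X ∈ quartets (unmask 340831)) :
    MulAction.orbit KQ X ⊆ quartets (unmask 340831) := by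
  rintro _ ⟨g, rfl⟩
  obtain ⟨h1, h2, _⟩ := mem_KQ'.1 g.2
  have := smul_mem_quartets h1 hX
  rwa [h2] at this

theorem orbit_disjoint {X Y : Finset (Finset GolayPt)}
    (h : (MulAction.orbit KQ X).ncard ≠ (MulAction.orbit KQ Y).ncard) :
    Disjoint (MulAction.orbit KQ X) (MulAction.orbit KQ Y) := by
  rcases MulAction.orbit.eq_or_disjoint (G := KQ) X Y with e | e
  · exact absurd (by rw [e]) h
  · exact e

theorem orbit_Q0 : MulAction.orbit KQ Q0 = {Q0} := by
  ext X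
  constructor
  · rintro ⟨g, rfl⟩
    exact (mem_KQ'.1 g.2).2.2
  · rintro rfl
    exact MulAction.mem_orbit_self _

theorem quartets_std_decomp : quartets (unmask 340831) =
    {Q0} ∪ MulAction.orbit KQ (Qof x1) ∪ MulAction.orbit KQ (Qof x2) ∪
      MulAction.orbit KQ (Qof x3) ∪ MulAction.orbit KQ (Qof x4) := by
  rw [← orbit_Q0]
  symm
  apply Set.eq_of_subset_of_ncard_le _ _ (Set.toFinite _)
  · simp only [Set.union_subset_iff]
    exact ⟨⟨⟨⟨orbit_KQ_subset Q0_mem, orbit_KQ_subset x1_mem⟩, orbit_KQ_subset x2_mem⟩,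
      orbit_KQ_subset x3_mem⟩, orbit_KQ_subset x4_mem⟩
  · have d01 := orbit_disjoint (X := Q0) (Y := Qof x1) (by rw [orb0, orb1]; norm_num)
    have d02 := orbit_disjoint (X := Q0) (Y := Qof x2) (by rw [orb0, orb2]; norm_num)
    have d03 := orbit_disjoint (X := Q0) (Y := Qof x3) (by rw [orb0, orb3]; norm_num)
    have d04 := orbit_disjoint (X := Q0) (Y := Qof x4) (by rw [orb0, orb4]; norm_num)
    have d12 := orbit_disjoint (X := Qof x1) (Y := Qof x2) (by rw [orb1, orb2]; norm_num)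
    have d13 := orbit_disjoint (X := Qof x1) (Y := Qof x3) (by rw [orb1, orb3]; norm_num)
    have d14 := orbit_disjoint (X := Qof x1) (Y := Qof x4) (by rw [orb1, orb4]; norm_num)
    have d23 := orbit_disjoint (X := Qof x2) (Y := Qof x3) (by rw [orb2, orb3]; norm_num)
    have d24 := orbit_disjoint (X := Qof x2) (Y := Qof x4) (by rw [orb2, orb4]; norm_num)
    have d34 := orbit_disjoint (X := Qof x3) (Y := Qof x4) (by rw [orb3, orb4]; norm_num)
    rw [Set.ncard_union_eq (by simp only [Set.disjoint_union_left]; exact ⟨⟨⟨d04, d14⟩, d24⟩, d34⟩)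
        (Set.toFinite _) (Set.toFinite _),
      Set.ncard_union_eq (by simp only [Set.disjoint_union_left]; exact ⟨⟨d03, d13⟩, d23⟩)
        (Set.toFinite _) (Set.toFinite _),
      Set.ncard_union_eq (by simp only [Set.disjoint_union_left]; exact ⟨d02, d12⟩)
        (Set.toFinite _) (Set.toFinite _),
      Set.ncard_union_eq d01 (Set.toFinite _) (Set.toFinite _),
      orb0, orb1, orb2, orb3, orb4, ncard_quartets_std]

theorem orbit_transport {d : Finset GolayPt} {Q : Finset (Finset GolayPt)} {t : Equiv.Perm GolayPt}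
    (ht : t ∈ M24) (ed : t • d = unmask 340831) (eQ : t • Q = Q0) (X : Finset (Finset GolayPt)) :
    MulAction.orbit ↥(MulAction.stabilizer M24 d ⊓ MulAction.stabilizer M24 Q) (t⁻¹ • X) =
      (fun Y : Finset (Finset GolayPt) => t⁻¹ • Y) '' MulAction.orbit KQ X := by
  ext Y
  constructor
  · rintro ⟨g, rfl⟩
    refine ⟨(quartEquiv ht ed eQ g : Equiv.Perm GolayPt) • X, ⟨quartEquiv ht ed eQ g, rfl⟩, ?_⟩
    show t⁻¹ • (quartEquiv ht ed eQ g : Equiv.Perm GolayPt) • X =
      ((g : ↥M24) : Equiv.Perm GolayPt) • t⁻¹ • X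
    rw [quartEquiv_coe, mul_smul, mul_smul, inv_smul_smul]
  · rintro ⟨_, ⟨k, rfl⟩, rfl⟩
    refine ⟨(quartEquiv ht ed eQ).symm k, ?_⟩
    show (((quartEquiv ht ed eQ).symm k : ↥M24) : Equiv.Perm GolayPt) • t⁻¹ • X =
      t⁻¹ • (k : Equiv.Perm GolayPt) • X
    rw [quartEquiv_symm_coe, mul_smul, mul_smul, smul_inv_smul]

theorem quartet_stab_orbits (d : Finset GolayPt) (hd : d ∈ dodecads) (Q : Finset (Finset GolayPt))
    (hQ : Q ∈ quartets d) :
    ∃ X₁ ∈ quartets d, ∃ X₂ ∈ quartets d, ∃ X₃ ∈ quartets d, ∃ X₄ ∈ quartets d,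
      (MulAction.orbit ↥(MulAction.stabilizer M24 d ⊓ MulAction.stabilizer M24 Q) X₁).ncard = 12 ∧
      (MulAction.orbit ↥(MulAction.stabilizer M24 d ⊓ MulAction.stabilizer M24 Q) X₂).ncard = 27 ∧
      (MulAction.orbit ↥(MulAction.stabilizer M24 d ⊓ MulAction.stabilizer M24 Q) X₃).ncard = 72 ∧
      (MulAction.orbit ↥(MulAction.stabilizer M24 d ⊓ MulAction.stabilizer M24 Q) X₄).ncard = 108 ∧
      quartets d = {Q} ∪
        MulAction.orbit ↥(MulAction.stabilizer M24 d ⊓ MulAction.stabilizer M24 Q) X₁ ∪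
        MulAction.orbit ↥(MulAction.stabilizer M24 d ⊓ MulAction.stabilizer M24 Q) X₂ ∪
        MulAction.orbit ↥(MulAction.stabilizer M24 d ⊓ MulAction.stabilizer M24 Q) X₃ ∪
        MulAction.orbit ↥(MulAction.stabilizer M24 d ⊓ MulAction.stabilizer M24 Q) X₄ := by
  obtain ⟨t, ht, ed, eQ⟩ := quartet_to_std hd hQ
  have him := quartets_eq_image ht ed
  have hmem : ∀ X ∈ quartets (unmask 340831), t⁻¹ • X ∈ quartets d := by
    intro X hX; rw [him]; exact ⟨X, hX, rfl⟩
  have hinj : Function.Injective (fun Y : Finset (Finset GolayPt) => t⁻¹ • Y) :=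
    MulAction.injective t⁻¹
  refine ⟨t⁻¹ • Qof x1, hmem _ x1_mem, t⁻¹ • Qof x2, hmem _ x2_mem, t⁻¹ • Qof x3, hmem _ x3_mem,
    t⁻¹ • Qof x4, hmem _ x4_mem, ?_, ?_, ?_, ?_, ?_⟩
  · rw [orbit_transport ht ed eQ, Set.ncard_image_of_injective _ hinj, orb1]
  · rw [orbit_transport ht ed eQ, Set.ncard_image_of_injective _ hinj, orb2]
  · rw [orbit_transport ht ed eQ, Set.ncard_image_of_injective _ hinj, orb3]
  · rw [orbit_transport ht ed eQ, Set.ncard_image_of_injective _ hinj, orb4]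
  · rw [him, quartets_std_decomp, orbit_transport ht ed eQ, orbit_transport ht ed eQ,
      orbit_transport ht ed eQ, orbit_transport ht ed eQ]
    simp only [Set.image_union, Set.image_singleton]
    rw [← eQ, inv_smul_smul]

end Cfsg.Agent.Lib.Helper27
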