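import Cfsg.Agent.Lib.Helper27.Re3Data

set_option autoImplicit false
set_option maxRecDepth 100000

namespace Cfsg.Agent.Lib.Helper27.Re3

open Cfsg.Agent.Lib.Helper28 Cfsg.Agent.Lib.Helper27.PC

theorem lrel_0 : allRange (fun c => allList (fun w => L.checkRel w c) W) 0 84 = true := by decide +kernel
theorem point_ok : allBelow L.checkPoint 84 = true := by decide +kernel
theorem tree_ok : allBelow L.checkTree 84 = true := by decide +kernel
theorem V : L.Valid where
  invK := by
    intro x hx
    have hx' : x < 61 := hx
    interval_cases x <;> exact ⟨by decide, rfl⟩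
  point := allBelow_iff.mp point_ok
  tree := allBelow_iff.mp tree_ok
theorem W_K : ∀ w ∈ W, ∀ y ∈ w, y < L.K := by decide +kernel
theorem lrel_all : ∀ w ∈ W, ∀ c < L.n, L.checkRel w c = true := by
  intro w hw c hc
  have hc' : c < 84 := hc
  by_cases h0 : c < 84
  · exact allList_iff.mp (allRange_iff.mp lrel_0 c (by omega) (by omega)) w hw
  omega
theorem relOK : RelOK L W := ⟨W_K, lrel_all⟩

end Cfsg.Agent.Lib.Helper27.Re3
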