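import Cfsg.Agent.Lib.Helper27.Re3Act

/-!
# `²G₂(3)` as a permutation group on 56 vectors and 28 pairs of vectors (helper27)
-/

set_option autoImplicit false
set_option maxRecDepth 100000

namespace Cfsg.Agent.Lib.Helper27.Re3

open Cfsg.Agent.Lib.Helper28 Cfsg.Agent.Lib.Helper27.PC Cfsg.Agent.Lib.Helper27.G2Vec Cfsg.Lie Matrix

theorem orb_lt {i : ℕ} (hi : i < 56) : orb i < 3 ^ 14 := lt_of_blt (allBelow_iff.mp orb_lt_chk i hi)

theorem srt_mono : ∀ a b : ℕ, a < b → b < 56 → orb (srt a) < orb (srt b) := by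
  intro a b hab
  induction b, hab using Nat.le_induction with
  | base => intro hb; exact lt_of_blt (allBelow_iff.mp srt_chk a (by omega))
  | succ b hb ih =>
    intro hb'
    exact lt_trans (ih (by omega)) (lt_of_blt (allBelow_iff.mp srt_chk b (by omega)))

theorem orb_inj {i j : ℕ} (hi : i < 56) (hj : j < 56) (h : orb i = orb j) : i = j := by
  have hi' := allBelow_iff.mp pos_chk i hi
  have hj' := allBelow_iff.mp pos_chk j hj
  rw [Bool.and_eq_true] at hi' hj'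
  have a1 := lt_of_blt hi'.1
  have a2 := eq_of_nbeq hi'.2
  have b1 := lt_of_blt hj'.1
  have b2 := eq_of_nbeq hj'.2
  rw [← a2, ← b2] at h
  rcases lt_trichotomy (pos i) (pos j) with hl | he | hl
  · exact absurd h (ne_of_lt (srt_mono _ _ hl b1))
  · rw [← a2, ← b2, he]
  · exact absurd h.symm (ne_of_lt (srt_mono _ _ hl a1))

theorem vec_inj {i j : ℕ} (hi : i < 56) (hj : j < 56) (h : vec i = vec j) : i = j :=
  orb_inj hi hj (vecOf_inj (orb_lt hi) (orb_lt hj) h)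

theorem nth_mem_spanL {j : ℕ} (hj : j < 14) : nth spanL [] j ∈ spanL := by
  revert j
  decide +kernel

theorem eq_one_of_fix_vec (M : Matrix chevG2.Idx chevG2.Idx (ZMod 3))
    (h : ∀ i < 56, M *ᵥ vec i = vec i) : M = 1 := by
  apply eq_one_of_fix M span span_chk
  intro j hj m hm
  obtain ⟨i, hi, rfl⟩ := List.mem_map.mp hm
  exact h i (span_lt _ (nth_mem_spanL hj) i hi)

/-- permutations whose action on the pairs is induced by the action on the vectors -/
def Cmp : Subgroup (Equiv.Perm ℕ) where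
  carrier := {g | (∀ c, c < 56 ↔ g c < 56) ∧ ∀ c < 56, g (56 + beta c) = 56 + beta (g c)}
  one_mem' := ⟨fun _ => Iff.rfl, fun _ _ => rfl⟩
  mul_mem' := by
    intro a b ha hb
    refine ⟨fun c => ?_, fun c hc => ?_⟩
    · rw [Equiv.Perm.mul_apply]
      exact (hb.1 c).trans (ha.1 (b c))
    · rw [Equiv.Perm.mul_apply, Equiv.Perm.mul_apply, hb.2 c hc, ha.2 _ ((hb.1 c).mp hc)]
  inv_mem' := by
    intro a ha
    have e : ∀ c, a (a⁻¹ c) = c := fun c => by simp
    refine ⟨fun c => ?_, fun c hc => ?_⟩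
    · have := ha.1 (a⁻¹ c)
      rw [e] at this
      exact this.symm
    · have h1 : a⁻¹ c < 56 := by
        have := ha.1 (a⁻¹ c)
        rw [e] at this
        exact this.mpr hc
      have h2 := ha.2 _ h1
      rw [e] at h2
      rw [← h2]
      simp

theorem top_K : ∀ y ∈ Ltop, y < L.K := by decide +kernel

theorem top_le_Cmp : Sg (val V) Ltop ≤ Cmp := by
  apply Sg_induction
  intro y hy
  have hyK : y < L.K := top_K y hy
  have h1 := allList_iff.mp beta_chk y hy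
  have h2 := allList_iff.mp beta_hi_chk y hy
  refine ⟨fun c => ?_, fun c hc => ?_⟩
  · rw [LB.perm_apply V hyK]
    constructor
    · intro hc
      have := allBelow_iff.mp h1 c hc
      rw [Bool.and_eq_true] at this
      exact lt_of_blt this.1
    · intro h
      by_contra hc
      by_cases hn : c < 84
      · have := allBelow_iff.mp h2 c hn
        rw [Bool.or_eq_true] at this
        rcases this with h3 | h3
        · exact hc (lt_of_blt h3)
        · have := Nat.le_of_ble_eq_true h3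
          omega
      · unfold LB.actN at h
        rw [if_neg (show ¬ c < L.n from hn)] at h
        exact hc h
  · rw [LB.perm_apply V hyK, LB.perm_apply V hyK]
    have := allBelow_iff.mp h1 c hc
    rw [Bool.and_eq_true] at this
    exact eq_of_nbeq this.2

/-- the matrix acts on the orbit as the permutation -/
def Rel (M : Matrix chevG2.Idx chevG2.Idx (ZMod 3)) (σ : Equiv.Perm ℕ) : Prop :=
  σ ∈ Sg (val V) Ltop ∧ ∀ i < 56, M *ᵥ vec i = vec (σ i)

theorem mem_lt {σ : Equiv.Perm ℕ} (h : σ ∈ Sg (val V) Ltop) {i : ℕ} (hi : i < 56) : σ i < 56 :=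
  ((top_le_Cmp h).1 i).mp hi

theorem Rel.unique {M : Matrix chevG2.Idx chevG2.Idx (ZMod 3)} {σ τ : Equiv.Perm ℕ}
    (h1 : Rel M σ) (h2 : Rel M τ) : σ = τ := by
  have key : ∀ i < 56, σ i = τ i := fun i hi =>
    vec_inj (mem_lt h1.1 hi) (mem_lt h2.1 hi) (by rw [← h1.2 i hi, ← h2.2 i hi])
  ext i
  by_cases hi : i < 56
  · exact key i hi
  · by_cases hn : i < 84
    · have hs := allBelow_iff.mp beta_surj_chk (i - 56) (by omega)
      rw [Bool.and_eq_true] at hs
      have hc := lt_of_blt hs.1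
      have he := eq_of_nbeq hs.2
      generalize nth _ 0 (i - 56) = c at hc he
      have e : i = 56 + beta c := by
        rw [he]
        omega
      rw [e, (top_le_Cmp h1.1).2 _ hc, (top_le_Cmp h2.1).2 _ hc, key _ hc]
    · rw [Sg_le_Bd V Ltop h1.1 i hn, Sg_le_Bd V Ltop h2.1 i hn]

theorem Rel.mul {M N : Matrix chevG2.Idx chevG2.Idx (ZMod 3)} {σ τ : Equiv.Perm ℕ}
    (h1 : Rel M σ) (h2 : Rel N τ) : Rel (M * N) (σ * τ) :=
  ⟨Subgroup.mul_mem _ h1.1 h2.1, fun i hi => by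
    rw [← Matrix.mulVec_mulVec, h2.2 i hi, h1.2 _ (mem_lt h2.1 hi)]
    rfl⟩

theorem Rel.one : Rel 1 1 := ⟨Subgroup.one_mem _, fun i _ => by rw [Matrix.one_mulVec]; rfl⟩

theorem Rel.inv {a : GL chevG2.Idx (ZMod 3)} {σ : Equiv.Perm ℕ}
    (h : Rel (a : Matrix chevG2.Idx chevG2.Idx (ZMod 3)) σ) :
    Rel ((a⁻¹ : GL chevG2.Idx (ZMod 3)) : Matrix chevG2.Idx chevG2.Idx (ZMod 3)) σ⁻¹ := by
  refine ⟨Subgroup.inv_mem _ h.1, fun i hi => ?_⟩
  have hj : σ⁻¹ i < 56 := mem_lt (Subgroup.inv_mem _ h.1) hi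
  have h1 := h.2 _ hj
  have e : σ (σ⁻¹ i) = i := by simp
  rw [e] at h1
  rw [← h1, Matrix.mulVec_mulVec, Units.inv_mul, Matrix.one_mulVec]

theorem zmod3_cases : ∀ t : ZMod 3, t = 0 ∨ t = 1 ∨ t = 2 := by decide

theorem rel_word : ∀ w ∈ g2Words (ZMod 3) 1, ∃ σ, Rel (chevG2.wordMat (ZMod 3) w) σ := by
  intro w hw
  obtain ⟨t, u, v, rfl | rfl⟩ := hw
  · rcases zmod3_cases t with rfl | rfl | rfl <;> rcases zmod3_cases u with rfl | rfl | rfl <;>
      rcases zmod3_cases v with rfl | rfl | rfl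
    · exact ⟨1, Subgroup.one_mem _, wU000_act⟩
    · exact ⟨LB.perm V 0, perm_mem_Sg V (by decide), wU001_act⟩
    · exact ⟨LB.perm V 1, perm_mem_Sg V (by decide), wU002_act⟩
    · exact ⟨LB.perm V 2, perm_mem_Sg V (by decide), wU010_act⟩
    · exact ⟨LB.perm V 4, perm_mem_Sg V (by decide), wU011_act⟩
    · exact ⟨LB.perm V 6, perm_mem_Sg V (by decide), wU012_act⟩
    · exact ⟨LB.perm V 3, perm_mem_Sg V (by decide), wU020_act⟩
    · exact ⟨LB.perm V 7, perm_mem_Sg V (by decide), wU021_act⟩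
    · exact ⟨LB.perm V 5, perm_mem_Sg V (by decide), wU022_act⟩
    · exact ⟨LB.perm V 8, perm_mem_Sg V (by decide), wU100_act⟩
    · exact ⟨LB.perm V 10, perm_mem_Sg V (by decide), wU101_act⟩
    · exact ⟨LB.perm V 12, perm_mem_Sg V (by decide), wU102_act⟩
    · exact ⟨LB.perm V 14, perm_mem_Sg V (by decide), wU110_act⟩
    · exact ⟨LB.perm V 16, perm_mem_Sg V (by decide), wU111_act⟩
    · exact ⟨LB.perm V 18, perm_mem_Sg V (by decide), wU112_act⟩
    · exact ⟨LB.perm V 20, perm_mem_Sg V (by decide), wU120_act⟩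
    · exact ⟨LB.perm V 22, perm_mem_Sg V (by decide), wU121_act⟩
    · exact ⟨LB.perm V 24, perm_mem_Sg V (by decide), wU122_act⟩
    · exact ⟨LB.perm V 25, perm_mem_Sg V (by decide), wU200_act⟩
    · exact ⟨LB.perm V 23, perm_mem_Sg V (by decide), wU201_act⟩
    · exact ⟨LB.perm V 21, perm_mem_Sg V (by decide), wU202_act⟩
    · exact ⟨LB.perm V 15, perm_mem_Sg V (by decide), wU210_act⟩
    · exact ⟨LB.perm V 19, perm_mem_Sg V (by decide), wU211_act⟩
    · exact ⟨LB.perm V 17, perm_mem_Sg V (by decide), wU212_act⟩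
    · exact ⟨LB.perm V 11, perm_mem_Sg V (by decide), wU220_act⟩
    · exact ⟨LB.perm V 9, perm_mem_Sg V (by decide), wU221_act⟩
    · exact ⟨LB.perm V 13, perm_mem_Sg V (by decide), wU222_act⟩
  · rcases zmod3_cases t with rfl | rfl | rfl <;> rcases zmod3_cases u with rfl | rfl | rfl <;>
      rcases zmod3_cases v with rfl | rfl | rfl
    · exact ⟨1, Subgroup.one_mem _, wV000_act⟩
    · exact ⟨LB.perm V 26, perm_mem_Sg V (by decide), wV001_act⟩
    · exact ⟨LB.perm V 27, perm_mem_Sg V (by decide), wV002_act⟩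
    · exact ⟨LB.perm V 28, perm_mem_Sg V (by decide), wV010_act⟩
    · exact ⟨LB.perm V 30, perm_mem_Sg V (by decide), wV011_act⟩
    · exact ⟨LB.perm V 32, perm_mem_Sg V (by decide), wV012_act⟩
    · exact ⟨LB.perm V 29, perm_mem_Sg V (by decide), wV020_act⟩
    · exact ⟨LB.perm V 33, perm_mem_Sg V (by decide), wV021_act⟩
    · exact ⟨LB.perm V 31, perm_mem_Sg V (by decide), wV022_act⟩
    · exact ⟨LB.perm V 34, perm_mem_Sg V (by decide), wV100_act⟩
    · exact ⟨LB.perm V 36, perm_mem_Sg V (by decide), wV101_act⟩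
    · exact ⟨LB.perm V 38, perm_mem_Sg V (by decide), wV102_act⟩
    · exact ⟨LB.perm V 40, perm_mem_Sg V (by decide), wV110_act⟩
    · exact ⟨LB.perm V 42, perm_mem_Sg V (by decide), wV111_act⟩
    · exact ⟨LB.perm V 44, perm_mem_Sg V (by decide), wV112_act⟩
    · exact ⟨LB.perm V 46, perm_mem_Sg V (by decide), wV120_act⟩
    · exact ⟨LB.perm V 48, perm_mem_Sg V (by decide), wV121_act⟩
    · exact ⟨LB.perm V 50, perm_mem_Sg V (by decide), wV122_act⟩
    · exact ⟨LB.perm V 51, perm_mem_Sg V (by decide), wV200_act⟩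
    · exact ⟨LB.perm V 49, perm_mem_Sg V (by decide), wV201_act⟩
    · exact ⟨LB.perm V 47, perm_mem_Sg V (by decide), wV202_act⟩
    · exact ⟨LB.perm V 41, perm_mem_Sg V (by decide), wV210_act⟩
    · exact ⟨LB.perm V 45, perm_mem_Sg V (by decide), wV211_act⟩
    · exact ⟨LB.perm V 43, perm_mem_Sg V (by decide), wV212_act⟩
    · exact ⟨LB.perm V 37, perm_mem_Sg V (by decide), wV220_act⟩
    · exact ⟨LB.perm V 35, perm_mem_Sg V (by decide), wV221_act⟩
    · exact ⟨LB.perm V 39, perm_mem_Sg V (by decide), wV222_act⟩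

theorem rel_letter : ∀ x ∈ Ltop, ∃ w ∈ g2Words (ZMod 3) 1, Rel (chevG2.wordMat (ZMod 3) w) (LB.perm V x) := by
  intro x hx
  simp only [Ltop, List.mem_cons, List.not_mem_nil, or_false] at hx
  rcases hx with rfl | rfl | rfl | rfl | rfl | rfl | rfl | rfl | rfl | rfl | rfl | rfl | rfl | rfl | rfl | rfl | rfl | rfl | rfl | rfl | rfl | rfl | rfl | rfl | rfl | rfl | rfl | rfl | rfl | rfl | rfl | rfl | rfl | rfl | rfl | rfl | rfl | rfl | rfl | rfl | rfl | rfl | rfl | rfl | rfl | rfl | rfl | rfl | rfl | rfl | rfl | rfl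
  · exact ⟨_, ⟨0, 0, 1, Or.inl rfl⟩, perm_mem_Sg V (by decide), wU001_act⟩
  · exact ⟨_, ⟨0, 0, 2, Or.inl rfl⟩, perm_mem_Sg V (by decide), wU002_act⟩
  · exact ⟨_, ⟨0, 1, 0, Or.inl rfl⟩, perm_mem_Sg V (by decide), wU010_act⟩
  · exact ⟨_, ⟨0, 2, 0, Or.inl rfl⟩, perm_mem_Sg V (by decide), wU020_act⟩
  · exact ⟨_, ⟨0, 1, 1, Or.inl rfl⟩, perm_mem_Sg V (by decide), wU011_act⟩
  · exact ⟨_, ⟨0, 2, 2, Or.inl rfl⟩, perm_mem_Sg V (by decide), wU022_act⟩
  · exact ⟨_, ⟨0, 1, 2, Or.inl rfl⟩, perm_mem_Sg V (by decide), wU012_act⟩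
  · exact ⟨_, ⟨0, 2, 1, Or.inl rfl⟩, perm_mem_Sg V (by decide), wU021_act⟩
  · exact ⟨_, ⟨1, 0, 0, Or.inl rfl⟩, perm_mem_Sg V (by decide), wU100_act⟩
  · exact ⟨_, ⟨2, 2, 1, Or.inl rfl⟩, perm_mem_Sg V (by decide), wU221_act⟩
  · exact ⟨_, ⟨1, 0, 1, Or.inl rfl⟩, perm_mem_Sg V (by decide), wU101_act⟩
  · exact ⟨_, ⟨2, 2, 0, Or.inl rfl⟩, perm_mem_Sg V (by decide), wU220_act⟩
  · exact ⟨_, ⟨1, 0, 2, Or.inl rfl⟩, perm_mem_Sg V (by decide), wU102_act⟩
  · exact ⟨_, ⟨2, 2, 2, Or.inl rfl⟩, perm_mem_Sg V (by decide), wU222_act⟩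
  · exact ⟨_, ⟨1, 1, 0, Or.inl rfl⟩, perm_mem_Sg V (by decide), wU110_act⟩
  · exact ⟨_, ⟨2, 1, 0, Or.inl rfl⟩, perm_mem_Sg V (by decide), wU210_act⟩
  · exact ⟨_, ⟨1, 1, 1, Or.inl rfl⟩, perm_mem_Sg V (by decide), wU111_act⟩
  · exact ⟨_, ⟨2, 1, 2, Or.inl rfl⟩, perm_mem_Sg V (by decide), wU212_act⟩
  · exact ⟨_, ⟨1, 1, 2, Or.inl rfl⟩, perm_mem_Sg V (by decide), wU112_act⟩
  · exact ⟨_, ⟨2, 1, 1, Or.inl rfl⟩, perm_mem_Sg V (by decide), wU211_act⟩
  · exact ⟨_, ⟨1, 2, 0, Or.inl rfl⟩, perm_mem_Sg V (by decide), wU120_act⟩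
  · exact ⟨_, ⟨2, 0, 2, Or.inl rfl⟩, perm_mem_Sg V (by decide), wU202_act⟩
  · exact ⟨_, ⟨1, 2, 1, Or.inl rfl⟩, perm_mem_Sg V (by decide), wU121_act⟩
  · exact ⟨_, ⟨2, 0, 1, Or.inl rfl⟩, perm_mem_Sg V (by decide), wU201_act⟩
  · exact ⟨_, ⟨1, 2, 2, Or.inl rfl⟩, perm_mem_Sg V (by decide), wU122_act⟩
  · exact ⟨_, ⟨2, 0, 0, Or.inl rfl⟩, perm_mem_Sg V (by decide), wU200_act⟩
  · exact ⟨_, ⟨0, 0, 1, Or.inr rfl⟩, perm_mem_Sg V (by decide), wV001_act⟩
  · exact ⟨_, ⟨0, 0, 2, Or.inr rfl⟩, perm_mem_Sg V (by decide), wV002_act⟩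
  · exact ⟨_, ⟨0, 1, 0, Or.inr rfl⟩, perm_mem_Sg V (by decide), wV010_act⟩
  · exact ⟨_, ⟨0, 2, 0, Or.inr rfl⟩, perm_mem_Sg V (by decide), wV020_act⟩
  · exact ⟨_, ⟨0, 1, 1, Or.inr rfl⟩, perm_mem_Sg V (by decide), wV011_act⟩
  · exact ⟨_, ⟨0, 2, 2, Or.inr rfl⟩, perm_mem_Sg V (by decide), wV022_act⟩
  · exact ⟨_, ⟨0, 1, 2, Or.inr rfl⟩, perm_mem_Sg V (by decide), wV012_act⟩
  · exact ⟨_, ⟨0, 2, 1, Or.inr rfl⟩, perm_mem_Sg V (by decide), wV021_act⟩
  · exact ⟨_, ⟨1, 0, 0, Or.inr rfl⟩, perm_mem_Sg V (by decide), wV100_act⟩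
  · exact ⟨_, ⟨2, 2, 1, Or.inr rfl⟩, perm_mem_Sg V (by decide), wV221_act⟩
  · exact ⟨_, ⟨1, 0, 1, Or.inr rfl⟩, perm_mem_Sg V (by decide), wV101_act⟩
  · exact ⟨_, ⟨2, 2, 0, Or.inr rfl⟩, perm_mem_Sg V (by decide), wV220_act⟩
  · exact ⟨_, ⟨1, 0, 2, Or.inr rfl⟩, perm_mem_Sg V (by decide), wV102_act⟩
  · exact ⟨_, ⟨2, 2, 2, Or.inr rfl⟩, perm_mem_Sg V (by decide), wV222_act⟩
  · exact ⟨_, ⟨1, 1, 0, Or.inr rfl⟩, perm_mem_Sg V (by decide), wV110_act⟩
  · exact ⟨_, ⟨2, 1, 0, Or.inr rfl⟩, perm_mem_Sg V (by decide), wV210_act⟩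
  · exact ⟨_, ⟨1, 1, 1, Or.inr rfl⟩, perm_mem_Sg V (by decide), wV111_act⟩
  · exact ⟨_, ⟨2, 1, 2, Or.inr rfl⟩, perm_mem_Sg V (by decide), wV212_act⟩
  · exact ⟨_, ⟨1, 1, 2, Or.inr rfl⟩, perm_mem_Sg V (by decide), wV112_act⟩
  · exact ⟨_, ⟨2, 1, 1, Or.inr rfl⟩, perm_mem_Sg V (by decide), wV211_act⟩
  · exact ⟨_, ⟨1, 2, 0, Or.inr rfl⟩, perm_mem_Sg V (by decide), wV120_act⟩
  · exact ⟨_, ⟨2, 0, 2, Or.inr rfl⟩, perm_mem_Sg V (by decide), wV202_act⟩
  · exact ⟨_, ⟨1, 2, 1, Or.inr rfl⟩, perm_mem_Sg V (by decide), wV121_act⟩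
  · exact ⟨_, ⟨2, 0, 1, Or.inr rfl⟩, perm_mem_Sg V (by decide), wV201_act⟩
  · exact ⟨_, ⟨1, 2, 2, Or.inr rfl⟩, perm_mem_Sg V (by decide), wV122_act⟩
  · exact ⟨_, ⟨2, 0, 0, Or.inr rfl⟩, perm_mem_Sg V (by decide), wV200_act⟩

theorem exists_rel : ∀ g ∈ twistedG2 (ZMod 3) 1,
    ∃ σ, Rel (g : Matrix chevG2.Idx chevG2.Idx (ZMod 3)) σ := by
  intro g hg
  unfold twistedG2 ChevalleyDatum.genSubgroup at hg
  induction hg using Subgroup.closure_induction with
  | mem g hg =>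
    obtain ⟨w, hw, e⟩ := hg
    rw [e]
    exact rel_word w hw
  | one => exact ⟨1, by rw [Units.val_one]; exact Rel.one⟩
  | mul a b _ _ iha ihb =>
    obtain ⟨σ, hσ⟩ := iha
    obtain ⟨τ, hτ⟩ := ihb
    exact ⟨σ * τ, by rw [Units.val_mul]; exact hσ.mul hτ⟩
  | inv a _ ih =>
    obtain ⟨σ, hσ⟩ := ih
    exact ⟨σ⁻¹, hσ.inv⟩

/-- the permutation representation -/
noncomputable def rho : twistedG2 (ZMod 3) 1 →* Equiv.Perm ℕ :=
  MonoidHom.mk' (fun g => Classical.choose (exists_rel g.1 g.2)) (by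
    intro a b
    refine Rel.unique (Classical.choose_spec (exists_rel (a * b).1 (a * b).2)) ?_
    have := (Classical.choose_spec (exists_rel a.1 a.2)).mul (Classical.choose_spec (exists_rel b.1 b.2))
    rw [← Units.val_mul] at this
    exact this)

theorem rho_rel (g : twistedG2 (ZMod 3) 1) :
    Rel ((g : GL chevG2.Idx (ZMod 3)) : Matrix chevG2.Idx chevG2.Idx (ZMod 3)) (rho g) :=
  Classical.choose_spec (exists_rel g.1 g.2)

theorem rho_inj : Function.Injective rho := by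
  rw [injective_iff_map_eq_one]
  intro g hg
  have h := rho_rel g
  rw [hg] at h
  have : ((g : GL chevG2.Idx (ZMod 3)) : Matrix chevG2.Idx chevG2.Idx (ZMod 3)) = 1 :=
    eq_one_of_fix_vec _ (fun i hi => h.2 i hi)
  exact Subtype.ext (Units.ext this)

theorem letter_unit : ∀ x ∈ Ltop, ∃ g : twistedG2 (ZMod 3) 1,
    Rel ((g : GL chevG2.Idx (ZMod 3)) : Matrix chevG2.Idx chevG2.Idx (ZMod 3)) (LB.perm V x) := by
  intro x hx
  have hxK : x < L.K := top_K x hx
  have hix : L.inv x ∈ Ltop := (by decide +kernel : ∀ x ∈ Ltop, L.inv x ∈ Ltop) x hx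
  obtain ⟨w, hw, hr⟩ := rel_letter x hx
  obtain ⟨w', _, hr'⟩ := rel_letter _ hix
  rw [LB.perm_inv V hxK] at hr'
  have h1 : chevG2.wordMat (ZMod 3) w * chevG2.wordMat (ZMod 3) w' = 1 := by
    have := hr.mul hr'
    rw [mul_inv_cancel] at this
    exact eq_one_of_fix_vec _ (fun i hi => this.2 i hi)
  have h2 : chevG2.wordMat (ZMod 3) w' * chevG2.wordMat (ZMod 3) w = 1 := by
    have := hr'.mul hr
    rw [inv_mul_cancel] at this
    exact eq_one_of_fix_vec _ (fun i hi => this.2 i hi)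
  refine ⟨⟨⟨chevG2.wordMat (ZMod 3) w, chevG2.wordMat (ZMod 3) w', h1, h2⟩, ?_⟩, hr⟩
  exact Subgroup.subset_closure ⟨w, hw, rfl⟩

theorem rho_range : rho.range = Sg (val V) LP := by
  rw [P_eq_top]
  apply le_antisymm
  · rintro _ ⟨g, rfl⟩
    exact (rho_rel g).1
  · unfold Sg
    rw [Subgroup.closure_le]
    rintro _ ⟨y, hy, rfl⟩
    apply Subgroup.inv_mem
    obtain ⟨g, hg⟩ := letter_unit y hy
    exact ⟨g, Rel.unique (rho_rel g) hg⟩

/-- `²G₂(3)` is isomorphic to the permutation group -/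
noncomputable def iso : twistedG2 (ZMod 3) 1 ≃* Sg (val V) LP :=
  (MonoidHom.ofInjective rho_inj).trans (MulEquiv.subgroupCongr rho_range)

/-- a simple subgroup of index at most three and of order more than six is normal -/
theorem normal_of_index_le_three {G : Type*} [Group G] [Finite G] (T : Subgroup G) (hs : IsSimpleGroup T)
    (hT : 6 < Nat.card T) (hidx : Nat.card G ≤ 3 * Nat.card T) : T.Normal := by
  have hi3 : T.index ≤ 3 := by
    rw [← T.index_mul_card] at hidx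
    exact Nat.le_of_mul_le_mul_right hidx (by omega)
  have hN : (T.normalCore.subgroupOf T).Normal := inferInstance
  rcases hN.eq_bot_or_eq_top with h | h
  · exfalso
    have hb : T.normalCore = ⊥ := by
      rw [Subgroup.subgroupOf_eq_bot, disjoint_iff, inf_eq_left.mpr T.normalCore_le] at h
      exact h
    have hd : T.normalCore.index ∣ T.index.factorial := by
      rw [Subgroup.normalCore_eq_ker, Subgroup.index_ker, Subgroup.index_eq_card, ← Nat.card_perm]
      exact Subgroup.card_subgroup_dvd_card (MulAction.toPermHom G (G ⧸ T)).range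
    rw [hb, Subgroup.index_bot] at hd
    have h1 : Nat.card G ≤ T.index.factorial := Nat.le_of_dvd (Nat.factorial_pos _) hd
    have h2 : T.index.factorial ≤ Nat.factorial 3 := Nat.factorial_le hi3
    have h3 : Nat.card T ≤ Nat.card G := Subgroup.card_le_card_group T
    have h4 : Nat.factorial 3 = 6 := rfl
    omega
  · have : T = T.normalCore := le_antisymm (Subgroup.subgroupOf_eq_top.mp h) T.normalCore_le
    rw [this]
    infer_instance

theorem comm_of_card_le_three {Q : Type*} [Group Q] [Finite Q] (h : Nat.card Q ≤ 3) : IsMulCommutative Q := by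
  have hpos : 0 < Nat.card Q := Nat.card_pos
  have key : ∀ a b : Q, a * b = b * a := by
    rcases (by omega : Nat.card Q = 1 ∨ Nat.card Q = 2 ∨ Nat.card Q = 3) with h1 | h1 | h1
    · intro a b
      have := (Nat.card_eq_one_iff_unique.mp h1).1
      exact Subsingleton.elim _ _
    · have : Fact (Nat.Prime 2) := ⟨by norm_num⟩
      have := isCyclic_of_prime_card h1
      exact fun a b => IsCyclic.commGroup.mul_comm a b
    · have : Fact (Nat.Prime 3) := ⟨by norm_num⟩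
      have := isCyclic_of_prime_card h1
      exact fun a b => IsCyclic.commGroup.mul_comm a b
  exact ⟨⟨key⟩⟩

theorem commutator_eq_of_index_le_three {G : Type*} [Group G] [Finite G] (T : Subgroup G)
    (hs : IsSimpleGroup T) (hT : 6 < Nat.card T) (hnp : ¬ (Nat.card T).Prime)
    (hidx : Nat.card G ≤ 3 * Nat.card T) : commutator G = T := by
  have hn : T.Normal := normal_of_index_le_three T hs hT hidx
  have hi3 : T.index ≤ 3 := by
    rw [← T.index_mul_card] at hidx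
    exact Nat.le_of_mul_le_mul_right hidx (by omega)
  apply le_antisymm
  · apply Subgroup.Normal.quotient_commutative_iff_commutator_le.mp
    apply comm_of_card_le_three
    rw [← Subgroup.index_eq_card]
    exact hi3
  · have hN : ((commutator G).subgroupOf T).Normal := inferInstance
    rcases hN.eq_bot_or_eq_top with h | h
    · exfalso
      apply hnp
      have hc : ∀ a b : T, a * b = b * a := by
        intro a b
        have hm : a * b * a⁻¹ * b⁻¹ ∈ (commutator G).subgroupOf T := by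
          rw [Subgroup.mem_subgroupOf, commutator_def]
          exact Subgroup.commutator_mem_commutator (Subgroup.mem_top a.1) (Subgroup.mem_top b.1)
        rw [h, Subgroup.mem_bot] at hm
        calc a * b = (a * b * a⁻¹ * b⁻¹) * (b * a) := by group
          _ = b * a := by rw [hm, one_mul]
      let _ : CommGroup T := { (inferInstance : Group T) with mul_comm := hc }
      exact IsSimpleGroup.prime_card
    · exact Subgroup.subgroupOf_eq_top.mp h

theorem transfer {X : Type*} [Group X] {G : Subgroup X} {Γ : Type*} [Group Γ] (A T : Subgroup Γ) (hTA : T ≤ A)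
    (f : G ≃* A) (hA : Finite A) (h3 : Nat.card A ≤ 3 * Nat.card T) (hs : IsSimpleGroup T)
    (hc : Nat.card T = 504) :
    Nat.card (commutator G) = 504 ∧ IsSimpleGroup (commutator G) ∧ Finite (commutator G) := by
  have : Finite G := Finite.of_equiv _ f.symm.toEquiv
  have e : (T.subgroupOf A).comap f.toMonoidHom ≃* T :=
    ((f.subgroupMap ((T.subgroupOf A).comap f.toMonoidHom)).trans (MulEquiv.subgroupCongr
      (Subgroup.map_comap_eq_self_of_surjective f.surjective (T.subgroupOf A)))).trans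
      (Subgroup.subgroupOfEquivOfLe hTA)
  have hc' : Nat.card ((T.subgroupOf A).comap f.toMonoidHom) = 504 := by
    rw [Nat.card_congr e.toEquiv, hc]
  have hs' : IsSimpleGroup ((T.subgroupOf A).comap f.toMonoidHom) := e.isSimpleGroup
  have key := commutator_eq_of_index_le_three ((T.subgroupOf A).comap f.toMonoidHom) hs'
    (by rw [hc']; norm_num) (by rw [hc']; norm_num) (by rw [hc', Nat.card_congr f.toEquiv, ← hc]; exact h3)
  rw [key]
  exact ⟨hc', hs', inferInstance⟩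

theorem main : Nat.card (commutator (twistedG2 (ZMod 3) 1)) = 504 ∧
    IsSimpleGroup (commutator (twistedG2 (ZMod 3) 1)) ∧ Finite (commutator (twistedG2 (ZMod 3) 1)) :=
  transfer _ _ T_le iso le0.1 le0.2 simpleT cardT

end Cfsg.Agent.Lib.Helper27.Re3
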