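import Cfsg.Agent.Lib.Helper27.RuPData

set_option autoImplicit false
set_option maxRecDepth 100000

namespace Cfsg.Agent.Lib.Helper27.RuP

open Cfsg.Agent.Lib.Helper28 Cfsg.Agent.Lib.Helper27.PC

theorem lrel_7 : allRange (fun c => allList (fun w => L.checkRel w c) W) 581 83 = true := by decide +kernel
theorem lrel_8 : allRange (fun c => allList (fun w => L.checkRel w c) W) 664 83 = true := by decide +kernel
theorem lrel_9 : allRange (fun c => allList (fun w => L.checkRel w c) W) 747 83 = true := by decide +kernel
theorem lrel_10 : allRange (fun c => allList (fun w => L.checkRel w c) W) 830 83 = true := by decide +kernel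
theorem lrel_11 : allRange (fun c => allList (fun w => L.checkRel w c) W) 913 83 = true := by decide +kernel
theorem lrel_12 : allRange (fun c => allList (fun w => L.checkRel w c) W) 996 83 = true := by decide +kernel
theorem lrel_13 : allRange (fun c => allList (fun w => L.checkRel w c) W) 1079 83 = true := by decide +kernel

end Cfsg.Agent.Lib.Helper27.RuP
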