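import Cfsg.Agent.Lib.Helper27.RuPData

set_option autoImplicit false
set_option maxRecDepth 100000

namespace Cfsg.Agent.Lib.Helper27.RuP

open Cfsg.Agent.Lib.Helper28 Cfsg.Agent.Lib.Helper27.PC

theorem lrel_14 : allRange (fun c => allList (fun w => L.checkRel w c) W) 1162 83 = true := by decide +kernel
theorem lrel_15 : allRange (fun c => allList (fun w => L.checkRel w c) W) 1245 83 = true := by decide +kernel
theorem lrel_16 : allRange (fun c => allList (fun w => L.checkRel w c) W) 1328 83 = true := by decide +kernel
theorem lrel_17 : allRange (fun c => allList (fun w => L.checkRel w c) W) 1411 83 = true := by decide +kernel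
theorem lrel_18 : allRange (fun c => allList (fun w => L.checkRel w c) W) 1494 83 = true := by decide +kernel
theorem lrel_19 : allRange (fun c => allList (fun w => L.checkRel w c) W) 1577 83 = true := by decide +kernel
theorem lrel_20 : allRange (fun c => allList (fun w => L.checkRel w c) W) 1660 83 = true := by decide +kernel

end Cfsg.Agent.Lib.Helper27.RuP
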