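import Cfsg.Agent.Lib.Helper27.RuPData

set_option autoImplicit false
set_option maxRecDepth 100000

namespace Cfsg.Agent.Lib.Helper27.RuP

open Cfsg.Agent.Lib.Helper28 Cfsg.Agent.Lib.Helper27.PC

theorem lrel_21 : allRange (fun c => allList (fun w => L.checkRel w c) W) 1743 83 = true := by decide +kernel
theorem lrel_22 : allRange (fun c => allList (fun w => L.checkRel w c) W) 1826 83 = true := by decide +kernel
theorem lrel_23 : allRange (fun c => allList (fun w => L.checkRel w c) W) 1909 83 = true := by decide +kernel
theorem lrel_24 : allRange (fun c => allList (fun w => L.checkRel w c) W) 1992 83 = true := by decide +kernel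
theorem lrel_25 : allRange (fun c => allList (fun w => L.checkRel w c) W) 2075 83 = true := by decide +kernel
theorem lrel_26 : allRange (fun c => allList (fun w => L.checkRel w c) W) 2158 83 = true := by decide +kernel
theorem lrel_27 : allRange (fun c => allList (fun w => L.checkRel w c) W) 2241 83 = true := by decide +kernel

end Cfsg.Agent.Lib.Helper27.RuP
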