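import Cfsg.Agent.Lib.Helper27.RuPData

set_option autoImplicit false
set_option maxRecDepth 100000

namespace Cfsg.Agent.Lib.Helper27.RuP

open Cfsg.Agent.Lib.Helper28 Cfsg.Agent.Lib.Helper27.PC

theorem lrel_42 : allRange (fun c => allList (fun w => L.checkRel w c) W) 3486 83 = true := by decide +kernel
theorem lrel_43 : allRange (fun c => allList (fun w => L.checkRel w c) W) 3569 83 = true := by decide +kernel
theorem lrel_44 : allRange (fun c => allList (fun w => L.checkRel w c) W) 3652 83 = true := by decide +kernel
theorem lrel_45 : allRange (fun c => allList (fun w => L.checkRel w c) W) 3735 83 = true := by decide +kernel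
theorem lrel_46 : allRange (fun c => allList (fun w => L.checkRel w c) W) 3818 83 = true := by decide +kernel
theorem lrel_47 : allRange (fun c => allList (fun w => L.checkRel w c) W) 3901 83 = true := by decide +kernel
theorem lrel_48 : allRange (fun c => allList (fun w => L.checkRel w c) W) 3984 76 = true := by decide +kernel

end Cfsg.Agent.Lib.Helper27.RuP
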