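import Cfsg.Agent.Lib.Helper27.RuPChkL0
import Cfsg.Agent.Lib.Helper27.RuPChkL1
import Cfsg.Agent.Lib.Helper27.RuPChkL2
import Cfsg.Agent.Lib.Helper27.RuPChkL3
import Cfsg.Agent.Lib.Helper27.RuPChkL4
import Cfsg.Agent.Lib.Helper27.RuPChkL5
import Cfsg.Agent.Lib.Helper27.RuPChkL6

set_option autoImplicit false
set_option maxRecDepth 100000

namespace Cfsg.Agent.Lib.Helper27.RuP

open Cfsg.Agent.Lib.Helper28 Cfsg.Agent.Lib.Helper27.PC

theorem point_ok : allBelow L.checkPoint 4060 = true := by decide +kernel
theorem tree_ok : allBelow L.checkTree 4060 = true := by decide +kernel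
theorem V : L.Valid where
  invK := by
    intro x hx
    have hx' : x < 17 := hx
    interval_cases x <;> exact ⟨by decide, rfl⟩
  point := allBelow_iff.mp point_ok
  tree := allBelow_iff.mp tree_ok
theorem W_K : ∀ w ∈ W, ∀ y ∈ w, y < L.K := by decide +kernel
theorem lrel_all : ∀ w ∈ W, ∀ c < L.n, L.checkRel w c = true := by
  intro w hw c hc
  have hc' : c < 4060 := hc
  by_cases h0 : c < 83
  · exact allList_iff.mp (allRange_iff.mp lrel_0 c (by omega) (by omega)) w hw
  by_cases h1 : c < 166
  · exact allList_iff.mp (allRange_iff.mp lrel_1 c (by omega) (by omega)) w hw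
  by_cases h2 : c < 249
  · exact allList_iff.mp (allRange_iff.mp lrel_2 c (by omega) (by omega)) w hw
  by_cases h3 : c < 332
  · exact allList_iff.mp (allRange_iff.mp lrel_3 c (by omega) (by omega)) w hw
  by_cases h4 : c < 415
  · exact allList_iff.mp (allRange_iff.mp lrel_4 c (by omega) (by omega)) w hw
  by_cases h5 : c < 498
  · exact allList_iff.mp (allRange_iff.mp lrel_5 c (by omega) (by omega)) w hw
  by_cases h6 : c < 581
  · exact allList_iff.mp (allRange_iff.mp lrel_6 c (by omega) (by omega)) w hw
  by_cases h7 : c < 664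
  · exact allList_iff.mp (allRange_iff.mp lrel_7 c (by omega) (by omega)) w hw
  by_cases h8 : c < 747
  · exact allList_iff.mp (allRange_iff.mp lrel_8 c (by omega) (by omega)) w hw
  by_cases h9 : c < 830
  · exact allList_iff.mp (allRange_iff.mp lrel_9 c (by omega) (by omega)) w hw
  by_cases h10 : c < 913
  · exact allList_iff.mp (allRange_iff.mp lrel_10 c (by omega) (by omega)) w hw
  by_cases h11 : c < 996
  · exact allList_iff.mp (allRange_iff.mp lrel_11 c (by omega) (by omega)) w hw
  by_cases h12 : c < 1079
  · exact allList_iff.mp (allRange_iff.mp lrel_12 c (by omega) (by omega)) w hw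
  by_cases h13 : c < 1162
  · exact allList_iff.mp (allRange_iff.mp lrel_13 c (by omega) (by omega)) w hw
  by_cases h14 : c < 1245
  · exact allList_iff.mp (allRange_iff.mp lrel_14 c (by omega) (by omega)) w hw
  by_cases h15 : c < 1328
  · exact allList_iff.mp (allRange_iff.mp lrel_15 c (by omega) (by omega)) w hw
  by_cases h16 : c < 1411
  · exact allList_iff.mp (allRange_iff.mp lrel_16 c (by omega) (by omega)) w hw
  by_cases h17 : c < 1494
  · exact allList_iff.mp (allRange_iff.mp lrel_17 c (by omega) (by omega)) w hw
  by_cases h18 : c < 1577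
  · exact allList_iff.mp (allRange_iff.mp lrel_18 c (by omega) (by omega)) w hw
  by_cases h19 : c < 1660
  · exact allList_iff.mp (allRange_iff.mp lrel_19 c (by omega) (by omega)) w hw
  by_cases h20 : c < 1743
  · exact allList_iff.mp (allRange_iff.mp lrel_20 c (by omega) (by omega)) w hw
  by_cases h21 : c < 1826
  · exact allList_iff.mp (allRange_iff.mp lrel_21 c (by omega) (by omega)) w hw
  by_cases h22 : c < 1909
  · exact allList_iff.mp (allRange_iff.mp lrel_22 c (by omega) (by omega)) w hw
  by_cases h23 : c < 1992
  · exact allList_iff.mp (allRange_iff.mp lrel_23 c (by omega) (by omega)) w hw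
  by_cases h24 : c < 2075
  · exact allList_iff.mp (allRange_iff.mp lrel_24 c (by omega) (by omega)) w hw
  by_cases h25 : c < 2158
  · exact allList_iff.mp (allRange_iff.mp lrel_25 c (by omega) (by omega)) w hw
  by_cases h26 : c < 2241
  · exact allList_iff.mp (allRange_iff.mp lrel_26 c (by omega) (by omega)) w hw
  by_cases h27 : c < 2324
  · exact allList_iff.mp (allRange_iff.mp lrel_27 c (by omega) (by omega)) w hw
  by_cases h28 : c < 2407
  · exact allList_iff.mp (allRange_iff.mp lrel_28 c (by omega) (by omega)) w hw
  by_cases h29 : c < 2490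
  · exact allList_iff.mp (allRange_iff.mp lrel_29 c (by omega) (by omega)) w hw
  by_cases h30 : c < 2573
  · exact allList_iff.mp (allRange_iff.mp lrel_30 c (by omega) (by omega)) w hw
  by_cases h31 : c < 2656
  · exact allList_iff.mp (allRange_iff.mp lrel_31 c (by omega) (by omega)) w hw
  by_cases h32 : c < 2739
  · exact allList_iff.mp (allRange_iff.mp lrel_32 c (by omega) (by omega)) w hw
  by_cases h33 : c < 2822
  · exact allList_iff.mp (allRange_iff.mp lrel_33 c (by omega) (by omega)) w hw
  by_cases h34 : c < 2905
  · exact allList_iff.mp (allRange_iff.mp lrel_34 c (by omega) (by omega)) w hw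
  by_cases h35 : c < 2988
  · exact allList_iff.mp (allRange_iff.mp lrel_35 c (by omega) (by omega)) w hw
  by_cases h36 : c < 3071
  · exact allList_iff.mp (allRange_iff.mp lrel_36 c (by omega) (by omega)) w hw
  by_cases h37 : c < 3154
  · exact allList_iff.mp (allRange_iff.mp lrel_37 c (by omega) (by omega)) w hw
  by_cases h38 : c < 3237
  · exact allList_iff.mp (allRange_iff.mp lrel_38 c (by omega) (by omega)) w hw
  by_cases h39 : c < 3320
  · exact allList_iff.mp (allRange_iff.mp lrel_39 c (by omega) (by omega)) w hw
  by_cases h40 : c < 3403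
  · exact allList_iff.mp (allRange_iff.mp lrel_40 c (by omega) (by omega)) w hw
  by_cases h41 : c < 3486
  · exact allList_iff.mp (allRange_iff.mp lrel_41 c (by omega) (by omega)) w hw
  by_cases h42 : c < 3569
  · exact allList_iff.mp (allRange_iff.mp lrel_42 c (by omega) (by omega)) w hw
  by_cases h43 : c < 3652
  · exact allList_iff.mp (allRange_iff.mp lrel_43 c (by omega) (by omega)) w hw
  by_cases h44 : c < 3735
  · exact allList_iff.mp (allRange_iff.mp lrel_44 c (by omega) (by omega)) w hw
  by_cases h45 : c < 3818
  · exact allList_iff.mp (allRange_iff.mp lrel_45 c (by omega) (by omega)) w hw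
  by_cases h46 : c < 3901
  · exact allList_iff.mp (allRange_iff.mp lrel_46 c (by omega) (by omega)) w hw
  by_cases h47 : c < 3984
  · exact allList_iff.mp (allRange_iff.mp lrel_47 c (by omega) (by omega)) w hw
  by_cases h48 : c < 4060
  · exact allList_iff.mp (allRange_iff.mp lrel_48 c (by omega) (by omega)) w hw
  omega
theorem relOK : RelOK L W := ⟨W_K, lrel_all⟩

end Cfsg.Agent.Lib.Helper27.RuP
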