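import Cfsg.Agent.Lib.Helper27.RuPLk0Data

set_option autoImplicit false
set_option maxRecDepth 100000

namespace Cfsg.Agent.Lib.Helper27.RuPLk0

open Cfsg.Agent.Lib.Helper28 Cfsg.Agent.Lib.Helper27.PC

theorem chk_0 : allRange D.checkLabel 0 2398 = true := by decide +kernel

end Cfsg.Agent.Lib.Helper27.RuPLk0
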