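import Cfsg.Agent.Lib.Helper27.RuPLk2C0

set_option autoImplicit false
set_option maxRecDepth 100000

namespace Cfsg.Agent.Lib.Helper27.RuPLk2

open Cfsg.Agent.Lib.Helper28 Cfsg.Agent.Lib.Helper27.PC

theorem check_all : ∀ c < D.m, D.checkLabel c = true := by
  intro c hc
  have hc' : c < 1755 := hc
  by_cases h0 : c < 1755
  · exact allRange_iff.mp chk_0 c (by omega) (by omega)
  omega
theorem pairs_ok : pairsC.all (pairOK (relsAll relsL linv 12) linv 11 12) = true := by decide +kernel
theorem relsK_ok : ∀ r ∈ relsAll relsL linv 12, ∀ y ∈ r, y < 12 := by decide +kernel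
theorem fin_all : allBelow D.finalLabel 1755 = true := by decide +kernel
theorem live_count : D.liveCount = 1755 := by decide +kernel
theorem h0_ok : D.tg D.K 0 = 0 := by decide +kernel
theorem ok : Lk.OK Cfsg.Agent.Lib.Helper27.RuP.W Cfsg.Agent.Lib.Helper27.RuP.L.inv Cfsg.Agent.Lib.Helper27.RuP.L.K [6, 7, 8, 9, 10, 11, 12, 13, 14, 15, 16] [10, 11, 12, 13, 14, 15, 16] where
  Kall := rfl
  invK := by decide +kernel
  invE := rfl
  relsIn := by decide +kernel
  Dpairs := rfl
  pairs := pairs_ok
  relsK := relsK_ok
  isSub := by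
    intro x hx
    have hx' : subL.contains x = true := hx
    show x ∈ subL
    simpa using hx'
  sub := by decide +kernel
  check := check_all
  gens := by decide +kernel
  hm := by decide
  h0 := h0_ok
  fin := allBelow_iff.mp fin_all
  count := live_count

end Cfsg.Agent.Lib.Helper27.RuPLk2
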