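import Cfsg.Agent.Lib.Helper27.RuPData

set_option autoImplicit false
set_option maxRecDepth 100000

namespace Cfsg.Agent.Lib.Helper27.RuPLk4

open Cfsg.Agent.Lib.Helper28 Cfsg.Agent.Lib.Helper27.PC

noncomputable def tabC0 : Tr := .leaf 0x25b2a46513a8425410
noncomputable def auxC0 : Tr := .leaf 0x232c984ce36780c000
noncomputable def tabC1 : Tr := .leaf 0x21d446ae59166e0498
noncomputable def auxC1 : Tr := .leaf 0x1d4a348a10a5400100
noncomputable def tabC2 : Tr := .leaf 0x1ca933408c81301820
noncomputable def auxC2 : Tr := .leaf 0x1aa52a006800a00000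
noncomputable def tabC3 : Tr := .leaf 0
noncomputable def auxC3 : Tr := .leaf 0
noncomputable def dC : Tr := .leaf 0x6090220881108400080100000
noncomputable def tabCols : List Tr := [tabC0, tabC1, tabC2, tabC3]
noncomputable def auxCols : List Tr := [auxC0, auxC1, auxC2, auxC3]
def pairsC : List ((List ℕ × ℕ × List ℕ) × ℕ) := [
  (([0], 1, []), 2048),
  (([1], 0, []), 3072),
  (([2, 0, 2], 0, []), 4),
  (([2], 2, []), 4096),
  (([0, 0, 0, 0], 0, []), 1026)]
def subL : List ℕ := []
noncomputable def D : UB where
  tab := field tabCols 6 63 7 127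
  aux := field auxCols 6 63 7 127
  dinfo := field [dC] 6 63 10 1023 0
  rb := 3
  RM := 7
  pb := 3
  PM := 7
  m := 10
  K := 3
  Kall := 4
  pairs := pairsC.map Prod.fst
  isSub := fun x => subL.contains x
  fuel := 4
def ren : ℕ → ℕ
  | 0 => 14
  | 1 => 15
  | 2 => 16
  | x => 0
def linv : ℕ → ℕ
  | 0 => 1
  | 1 => 0
  | 2 => 2
  | x => x
def relsL : List (List ℕ) := [
  [2, 0, 2, 0],
  [0, 0, 0, 0, 0]]
noncomputable def Lk : Link where
  D := D
  ren := ren
  inv := linv
  rels := relsL
  pairsC := pairsC
  subL := subL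
  n := 10
theorem chk_0 : allRange D.checkLabel 0 10 = true := by decide +kernel
theorem check_all : ∀ c < D.m, D.checkLabel c = true := by
  intro c hc
  have hc' : c < 10 := hc
  by_cases h0 : c < 10
  · exact allRange_iff.mp chk_0 c (by omega) (by omega)
  omega
theorem pairs_ok : pairsC.all (pairOK (relsAll relsL linv 4) linv 3 4) = true := by decide +kernel
theorem relsK_ok : ∀ r ∈ relsAll relsL linv 4, ∀ y ∈ r, y < 4 := by decide +kernel
theorem fin_all : allBelow D.finalLabel 10 = true := by decide +kernel
theorem live_count : D.liveCount = 10 := by decide +kernel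
theorem h0_ok : D.tg D.K 0 = 0 := by decide +kernel
theorem ok : Lk.OK Cfsg.Agent.Lib.Helper27.RuP.W Cfsg.Agent.Lib.Helper27.RuP.L.inv Cfsg.Agent.Lib.Helper27.RuP.L.K [14, 15, 16] [] where
  Kall := rfl
  invK := by decide +kernel
  invE := rfl
  relsIn := by decide +kernel
  Dpairs := rfl
  pairs := pairs_ok
  relsK := relsK_ok
  isSub := by
    intro x hx
    have hx' : subL.contains x = true := hx
    show x ∈ subL
    simpa using hx'
  sub := by decide +kernel
  check := check_all
  gens := by decide +kernel
  hm := by decide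
  h0 := h0_ok
  fin := allBelow_iff.mp fin_all
  count := live_count

end Cfsg.Agent.Lib.Helper27.RuPLk4
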