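import Cfsg.Agent.Lib.Helper27.RuPOrb
import Cfsg.Agent.Lib.Helper27.RuPLk0
import Cfsg.Agent.Lib.Helper27.RuPLk1
import Cfsg.Agent.Lib.Helper27.RuPLk2
import Cfsg.Agent.Lib.Helper27.RuPLk3
import Cfsg.Agent.Lib.Helper27.RuPLk4

set_option autoImplicit false
set_option maxRecDepth 100000

namespace Cfsg.Agent.Lib.Helper27.RuP

open Cfsg.Agent.Lib.Helper28 Cfsg.Agent.Lib.Helper27.PC

theorem lvl4 : Finite (Sg (val V) [14, 15, 16]) ∧
    Nat.card (Sg (val V) [14, 15, 16]) = 10 * Nat.card (Sg (val V) []) ∧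
    ∀ g ∈ Sg (val V) [14, 15, 16], g 1285 = 1285 → g ∈ Sg (val V) [] :=
  level_orbit V relOK RuPLk4.Lk [14, 15, 16] [] RuPLk4.ok lev4 [1979, 1712, 0] lev4_ok
    (by decide +kernel) (by decide +kernel) (by decide +kernel) rfl (by rw [Sg_nil]; infer_instance)
theorem lvl3 : Finite (Sg (val V) [10, 11, 12, 13, 14, 15, 16]) ∧
    Nat.card (Sg (val V) [10, 11, 12, 13, 14, 15, 16]) = 1024 * Nat.card (Sg (val V) [14, 15, 16]) ∧
    ∀ g ∈ Sg (val V) [10, 11, 12, 13, 14, 15, 16], g 1979 = 1979 → g ∈ Sg (val V) [14, 15, 16] :=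
  level_orbit V relOK RuPLk3.Lk [10, 11, 12, 13, 14, 15, 16] [14, 15, 16] RuPLk3.ok lev3 [1712, 0] lev3_ok
    (by decide +kernel) (by decide +kernel) (by decide +kernel) rfl lvl4.1
theorem lvl2 : Finite (Sg (val V) [6, 7, 8, 9, 10, 11, 12, 13, 14, 15, 16]) ∧
    Nat.card (Sg (val V) [6, 7, 8, 9, 10, 11, 12, 13, 14, 15, 16]) = 1755 * Nat.card (Sg (val V) [10, 11, 12, 13, 14, 15, 16]) ∧
    ∀ g ∈ Sg (val V) [6, 7, 8, 9, 10, 11, 12, 13, 14, 15, 16], g 1712 = 1712 → g ∈ Sg (val V) [10, 11, 12, 13, 14, 15, 16] :=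
  level_orbit V relOK RuPLk2.Lk [6, 7, 8, 9, 10, 11, 12, 13, 14, 15, 16] [10, 11, 12, 13, 14, 15, 16] RuPLk2.ok lev2 [0] lev2_ok
    (by decide +kernel) (by decide +kernel) (by decide +kernel) rfl lvl3.1
theorem cardT : Nat.card (Sg (val V) [6, 7, 8, 9, 10, 11, 12, 13, 14, 15, 16]) = 17971200 := by
  rw [lvl2.2.1, lvl3.2.1, lvl4.2.1, Sg_nil, Subgroup.card_bot]
theorem le1 : Finite (Sg (val V) [4, 5, 6, 7, 8, 9, 10, 11, 12, 13, 14, 15, 16]) ∧ Nat.card (Sg (val V) [4, 5, 6, 7, 8, 9, 10, 11, 12, 13, 14, 15, 16]) ≤ 2 * Nat.card (Sg (val V) [6, 7, 8, 9, 10, 11, 12, 13, 14, 15, 16]) :=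
  link_le V relOK RuPLk1.Lk [4, 5, 6, 7, 8, 9, 10, 11, 12, 13, 14, 15, 16] [6, 7, 8, 9, 10, 11, 12, 13, 14, 15, 16] RuPLk1.ok lvl2.1
theorem le0 : Finite (Sg (val V) [0, 1, 2, 3, 4, 5, 6, 7, 8, 9, 10, 11, 12, 13, 14, 15, 16]) ∧ Nat.card (Sg (val V) [0, 1, 2, 3, 4, 5, 6, 7, 8, 9, 10, 11, 12, 13, 14, 15, 16]) ≤ 4060 * Nat.card (Sg (val V) [4, 5, 6, 7, 8, 9, 10, 11, 12, 13, 14, 15, 16]) :=
  link_le V relOK RuPLk0.Lk [0, 1, 2, 3, 4, 5, 6, 7, 8, 9, 10, 11, 12, 13, 14, 15, 16] [4, 5, 6, 7, 8, 9, 10, 11, 12, 13, 14, 15, 16] RuPLk0.ok le1.1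
theorem card0 : Nat.card (Sg (val V) [0, 1, 2, 3, 4, 5, 6, 7, 8, 9, 10, 11, 12, 13, 14, 15, 16]) = 145926144000 := by
  have h1 := card_ge_top V [0, 1, 2, 3, 4, 5, 6, 7, 8, 9, 10, 11, 12, 13, 14, 15, 16] (by decide +kernel) le0.1 levels chain_ok
  rw [levels_prod] at h1
  have h2 := le0.2
  have h3 := le1.2
  rw [cardT] at h3
  omega
def defs0 : List (ℕ × List ℕ) := [(4, [1, 2, 1, 3, 3, 0, 3, 3, 3]), (6, [1, 2, 0, 2, 0, 0, 0, 2, 1, 2, 1, 1]), (8, [1, 2, 0, 3, 3, 3, 0, 0, 0, 0, 3, 1]), (10, [7, 7, 8, 8, 7, 9, 9]), (12, [8, 6, 9, 7, 9, 6]), (14, [12, 12, 10, 10, 10, 13]), (16, [11, 11, 12, 11, 13, 10, 12, 11])]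
def defsT : List (ℕ × List ℕ) := [(10, [7, 7, 8, 8, 7, 9, 9]), (12, [8, 6, 9, 7, 9, 6]), (14, [12, 12, 10, 10, 10, 13]), (16, [11, 11, 12, 11, 13, 10, 12, 11])]
theorem simple0 : IsSimpleGroup (Sg (val V) [0, 1, 2, 3, 4, 5, 6, 7, 8, 9, 10, 11, 12, 13, 14, 15, 16]) :=
  simple_level V relOK [0, 1, 2, 3, 4, 5, 6, 7, 8, 9, 10, 11, 12, 13, 14, 15, 16] [4, 5, 6, 7, 8, 9, 10, 11, 12, 13, 14, 15, 16] 0 4060 le0.1 le0.2
    (by decide +kernel) (by decide) (by decide +kernel) so0 (allBelow_iff.mp so0_chk) so0_isL 3 (by norm_num)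
    lev0 [] lev0_ok rfl (by decide +kernel) (by decide +kernel) (by decide +kernel)
    [1, 1755, 2304] so0_cnt (by decide) (by decide +kernel) (by decide +kernel)
    (faith_top V _ so0 3 (fun c hc => lt_of_blt (allBelow_iff.mp so0_all c hc)))
    29 1 1 (by norm_num) (by norm_num) (by rw [card0]; norm_num)
    [0, 2] (by decide +kernel) defs0 (by decide +kernel) (by decide +kernel) (by decide +kernel)
    (by rw [card0]; norm_num)
theorem faithT : ∀ g ∈ Sg (val V) [6, 7, 8, 9, 10, 11, 12, 13, 14, 15, 16], (∀ c < L.n, soT.oid c < 5 → g c = c) → g = 1 := by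
  intro g hg h
  have h2 := lvl2.2.2 g hg (h 1712 (by decide) (by decide +kernel))
  have h3 := lvl3.2.2 g h2 (h 1979 (by decide) (by decide +kernel))
  have h4 := lvl4.2.2 g h3 (h 1285 (by decide) (by decide +kernel))
  rw [Sg_nil] at h4
  exact Subgroup.mem_bot.mp h4
theorem simpleT : IsSimpleGroup (Sg (val V) [6, 7, 8, 9, 10, 11, 12, 13, 14, 15, 16]) :=
  simple_level V relOK [6, 7, 8, 9, 10, 11, 12, 13, 14, 15, 16] [10, 11, 12, 13, 14, 15, 16] 1712 1755 lvl2.1 (le_of_eq lvl2.2.1)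
    (by decide +kernel) (by decide) (by decide +kernel) soT (allBelow_iff.mp soT_chk) soT_isL 5 (by norm_num)
    lev2 [0] lev2_ok rfl (by decide +kernel) (by decide +kernel) (by decide +kernel)
    [1, 640, 1024, 80, 10] soT_cnt (by decide) (by decide +kernel) (by decide +kernel)
    faithT
    13 1 1 (by norm_num) (by norm_num) (by rw [cardT]; norm_num)
    [6, 8] (by decide +kernel) defsT (by decide +kernel) (by decide +kernel) (by decide +kernel)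
    (by rw [cardT]; norm_num)
theorem T_le : Sg (val V) [6, 7, 8, 9, 10, 11, 12, 13, 14, 15, 16] ≤ Sg (val V) [0, 1, 2, 3, 4, 5, 6, 7, 8, 9, 10, 11, 12, 13, 14, 15, 16] := Sg_mono _ (by decide +kernel)
theorem T_fix : ∀ g ∈ Sg (val V) [6, 7, 8, 9, 10, 11, 12, 13, 14, 15, 16], g 0 = 0 := Sg_fix V [6, 7, 8, 9, 10, 11, 12, 13, 14, 15, 16] 0 (by decide) (by decide +kernel)

end Cfsg.Agent.Lib.Helper27.RuP
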