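import Cfsg.Agent.Lib.Helper27.WHSAut

/-!
# Uniqueness of the strongly regular graph with parameters (100, 22, 0, 6)
-/

set_option autoImplicit false

namespace Cfsg.Agent.Lib.Helper27

open Cfsg

section
variable {V : Type*} [Fintype V] [DecidableEq V] {G : SimpleGraph V} [DecidableRel G.Adj]

theorem card_common_eq (a b : V) :
    Fintype.card (G.commonNeighbors a b) = (G.neighborFinset a ∩ G.neighborFinset b).card := by
  apply Fintype.card_of_subtype
  intro x
  rw [Finset.mem_inter, SimpleGraph.mem_neighborFinset, SimpleGraph.mem_neighborFinset,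
    SimpleGraph.mem_commonNeighbors]

variable (h : G.IsSRGWith 100 22 0 6)
include h

theorem srg_card_nbr (a : V) : (G.neighborFinset a).card = 22 := by
  rw [SimpleGraph.card_neighborFinset_eq_degree]; exact h.regular a

theorem srg_inter_six {a b : V} (hne : a ≠ b) (hab : ¬ G.Adj a b) :
    (G.neighborFinset a ∩ G.neighborFinset b).card = 6 := by
  rw [← card_common_eq]; exact h.of_not_adj hne hab

theorem srg_no_triangle {a b c : V} (hab : G.Adj a b) (hac : G.Adj a c) : ¬ G.Adj b c := by
  intro hbc
  have h1 := h.of_adj b c hbc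
  rw [card_common_eq, Finset.card_eq_zero] at h1
  have h2 : a ∈ G.neighborFinset b ∩ G.neighborFinset c := by
    rw [Finset.mem_inter, SimpleGraph.mem_neighborFinset, SimpleGraph.mem_neighborFinset]
    exact ⟨hab.symm, hac.symm⟩
  rw [h1] at h2
  exact absurd h2 (Finset.notMem_empty a)

/-- the vertices far from both `v` and `x`. -/
def farSet (G : SimpleGraph V) [DecidableRel G.Adj] (v x : V) : Finset V :=
  Finset.univ.filter (fun y => y ≠ v ∧ ¬ G.Adj v y ∧ y ≠ x ∧ ¬ G.Adj x y)

theorem card_farSet {v x : V} (hne : x ≠ v) (hvx : ¬ G.Adj v x) : (farSet G v x).card = 60 := by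
  have e : farSet G v x = (insert v (insert x (G.neighborFinset v ∪ G.neighborFinset x)))ᶜ := by
    ext y
    simp only [farSet, Finset.mem_filter, Finset.mem_univ, true_and, Finset.mem_compl,
      Finset.mem_insert, Finset.mem_union, SimpleGraph.mem_neighborFinset]
    tauto
  have hu : (G.neighborFinset v ∪ G.neighborFinset x).card = 38 := by
    have := Finset.card_union_add_card_inter (G.neighborFinset v) (G.neighborFinset x)
    rw [srg_card_nbr h, srg_card_nbr h, srg_inter_six h hne.symm hvx] at this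
    omega
  rw [e, Finset.card_compl, h.card, Finset.card_insert_of_notMem, Finset.card_insert_of_notMem, hu]
  · simp only [Finset.mem_union, SimpleGraph.mem_neighborFinset, SimpleGraph.irrefl, or_false]
    exact hvx
  · simp only [Finset.mem_insert, Finset.mem_union, SimpleGraph.mem_neighborFinset,
      SimpleGraph.irrefl, false_or]
    rintro (h1 | h1)
    · exact hne h1.symm
    · exact hvx h1.symm

theorem far_sum_one {v x : V} (hne : x ≠ v) (hvx : ¬ G.Adj v x) :
    ∑ y ∈ farSet G v x,
      ((G.neighborFinset v ∩ G.neighborFinset x).filter (fun p => G.Adj y p)).card = 120 := by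
  have h1 := Finset.sum_card_bipartiteAbove_eq_sum_card_bipartiteBelow
    (s := farSet G v x) (t := G.neighborFinset v ∩ G.neighborFinset x) (fun y p => G.Adj y p)
  unfold Finset.bipartiteAbove Finset.bipartiteBelow at h1
  rw [h1]
  have h2 : ∀ p ∈ G.neighborFinset v ∩ G.neighborFinset x,
      ((farSet G v x).filter (fun y => G.Adj y p)).card = 20 := by
    intro p hp
    rw [Finset.mem_inter, SimpleGraph.mem_neighborFinset, SimpleGraph.mem_neighborFinset] at hp
    have e : (farSet G v x).filter (fun y => G.Adj y p) = ((G.neighborFinset p).erase v).erase x := by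
      ext y
      simp only [farSet, Finset.mem_filter, Finset.mem_univ, true_and, Finset.mem_erase,
        SimpleGraph.mem_neighborFinset]
      constructor
      · rintro ⟨⟨a1, _, a3, _⟩, a5⟩
        exact ⟨a3, a1, a5.symm⟩
      · rintro ⟨a1, a2, a3⟩
        exact ⟨⟨a2, srg_no_triangle h hp.1.symm a3, a1, srg_no_triangle h hp.2.symm a3⟩, a3.symm⟩
    rw [e, Finset.card_erase_of_mem, Finset.card_erase_of_mem, srg_card_nbr h]
    · rw [SimpleGraph.mem_neighborFinset]; exact hp.1.symm
    · rw [Finset.mem_erase, SimpleGraph.mem_neighborFinset]; exact ⟨hne, hp.2.symm⟩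
  rw [Finset.sum_congr rfl h2, Finset.sum_const, srg_inter_six h hne.symm hvx]
  rfl

theorem far_sum_two {v x : V} (hne : x ≠ v) (hvx : ¬ G.Adj v x) :
    ∑ y ∈ farSet G v x,
      ((G.neighborFinset v ∩ G.neighborFinset x).filter (fun p => G.Adj y p)).offDiag.card = 120 := by
  have e0 : ∀ y, ((G.neighborFinset v ∩ G.neighborFinset x).filter (fun p => G.Adj y p)).offDiag =
      (G.neighborFinset v ∩ G.neighborFinset x).offDiag.filter
        (fun pq => G.Adj y pq.1 ∧ G.Adj y pq.2) := by
    intro y
    ext pq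
    simp only [Finset.mem_offDiag, Finset.mem_filter]
    tauto
  simp only [e0]
  have h1 := Finset.sum_card_bipartiteAbove_eq_sum_card_bipartiteBelow
    (s := farSet G v x) (t := (G.neighborFinset v ∩ G.neighborFinset x).offDiag)
    (fun y pq => G.Adj y pq.1 ∧ G.Adj y pq.2)
  unfold Finset.bipartiteAbove Finset.bipartiteBelow at h1
  rw [h1]
  have h2 : ∀ pq ∈ (G.neighborFinset v ∩ G.neighborFinset x).offDiag,
      ((farSet G v x).filter (fun y => G.Adj y pq.1 ∧ G.Adj y pq.2)).card = 4 := by
    rintro ⟨p, q⟩ hpq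
    simp only [Finset.mem_offDiag, Finset.mem_inter, SimpleGraph.mem_neighborFinset] at hpq
    obtain ⟨hp, hq, hpq⟩ := hpq
    have e : (farSet G v x).filter (fun y => G.Adj y p ∧ G.Adj y q) =
        ((G.neighborFinset p ∩ G.neighborFinset q).erase v).erase x := by
      ext y
      simp only [farSet, Finset.mem_filter, Finset.mem_univ, true_and, Finset.mem_erase,
        Finset.mem_inter, SimpleGraph.mem_neighborFinset]
      constructor
      · rintro ⟨⟨a1, _, a3, _⟩, a5, a6⟩
        exact ⟨a3, a1, a5.symm, a6.symm⟩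
      · rintro ⟨a1, a2, a3, a4⟩
        exact ⟨⟨a2, srg_no_triangle h hp.1.symm a3, a1, srg_no_triangle h hp.2.symm a3⟩,
          a3.symm, a4.symm⟩
    rw [e, Finset.card_erase_of_mem, Finset.card_erase_of_mem,
      srg_inter_six h hpq (srg_no_triangle h hp.1 hq.1)]
    · rw [Finset.mem_inter, SimpleGraph.mem_neighborFinset, SimpleGraph.mem_neighborFinset]
      exact ⟨hp.1.symm, hq.1.symm⟩
    · rw [Finset.mem_erase, Finset.mem_inter, SimpleGraph.mem_neighborFinset,
        SimpleGraph.mem_neighborFinset]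
      exact ⟨hne, hp.2.symm, hq.2.symm⟩
  rw [Finset.sum_congr rfl h2, Finset.sum_const, Finset.offDiag_card, srg_inter_six h hne.symm hvx]
  rfl

/-- two non-adjacent vertices far from `v` have exactly two common neighbours among the neighbours
of `v`. -/
theorem far_inter_two {v x y : V} (hne : x ≠ v) (hvx : ¬ G.Adj v x) (hy : y ∈ farSet G v x) :
    ((G.neighborFinset v ∩ G.neighborFinset x).filter (fun p => G.Adj y p)).card = 2 := by
  set a : V → ℕ := fun y =>
    ((G.neighborFinset v ∩ G.neighborFinset x).filter (fun p => G.Adj y p)).card with ha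
  have s1 : ∑ y ∈ farSet G v x, a y = 120 := far_sum_one h hne hvx
  have s2 : ∑ y ∈ farSet G v x, (a y * a y - a y) = 120 := by
    rw [← far_sum_two h hne hvx]
    apply Finset.sum_congr rfl
    intro y _
    rw [Finset.offDiag_card]
  have s1' : ∑ y ∈ farSet G v x, (a y : ℤ) = 120 := by exact_mod_cast s1
  have s2' : ∑ y ∈ farSet G v x, ((a y : ℤ) * a y - a y) = 120 := by
    have : ∀ y, ((a y * a y - a y : ℕ) : ℤ) = (a y : ℤ) * a y - a y := by
      intro y
      rw [Nat.cast_sub (Nat.le_mul_self _), Nat.cast_mul]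
    rw [← Finset.sum_congr rfl (fun y _ => this y)]
    exact_mod_cast s2
  have s3 : ∑ y ∈ farSet G v x, ((a y : ℤ) - 2) ^ 2 = 0 := by
    have : ∀ y, ((a y : ℤ) - 2) ^ 2 = ((a y : ℤ) * a y - a y) - 3 * (a y : ℤ) + 4 := by
      intro y; ring
    rw [Finset.sum_congr rfl (fun y _ => this y), Finset.sum_add_distrib, Finset.sum_sub_distrib,
      ← Finset.mul_sum, s1', s2', Finset.sum_const, card_farSet h hne hvx]
    norm_num
  have s4 := (Finset.sum_eq_zero_iff_of_nonneg (fun y _ => sq_nonneg ((a y : ℤ) - 2))).1 s3 y hy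
  have s5 : (a y : ℤ) - 2 = 0 := by
    exact pow_eq_zero_iff (by norm_num) |>.1 s4
  show a y = 2
  omega

end

/-! ### the design on the neighbours of a vertex -/

section
variable {V : Type*} [Fintype V] [DecidableEq V] {G : SimpleGraph V} [DecidableRel G.Adj]

/-- the neighbours of `v`, as a type. -/
abbrev NbrT (G : SimpleGraph V) (v : V) : Type _ := {p : V // G.Adj v p}

/-- the neighbours of `v` adjacent to `w`. -/
def blk (G : SimpleGraph V) [DecidableRel G.Adj] (v w : V) : Finset (NbrT G v) :=
  Finset.univ.filter (fun p => G.Adj w p.1)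

theorem mem_blk {v w : V} {p : NbrT G v} : p ∈ blk G v w ↔ G.Adj w p.1 := by
  simp [blk]

/-- the blocks. -/
def blocks (G : SimpleGraph V) [DecidableRel G.Adj] (v : V) : Set (Finset (NbrT G v)) :=
  {b | ∃ w, w ≠ v ∧ ¬ G.Adj v w ∧ b = blk G v w}

theorem card_filter_nbrT (v : V) (S : Finset V) :
    (Finset.univ.filter (fun p : NbrT G v => p.1 ∈ S)).card = (G.neighborFinset v ∩ S).card := by
  rw [← Finset.card_map (Function.Embedding.subtype _)]
  congr 1
  ext x
  simp only [Finset.mem_map, Finset.mem_filter, Finset.mem_univ, true_and,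
    Function.Embedding.coe_subtype, Finset.mem_inter, SimpleGraph.mem_neighborFinset]
  constructor
  · rintro ⟨⟨y, hy⟩, h1, rfl⟩
    exact ⟨hy, h1⟩
  · rintro ⟨h1, h2⟩
    exact ⟨⟨x, h1⟩, h2, rfl⟩

theorem card_blk_eq (v w : V) :
    (blk G v w).card = (G.neighborFinset v ∩ G.neighborFinset w).card := by
  rw [← card_filter_nbrT]
  congr 1
  ext p
  simp [blk]

theorem card_blk_inter_eq (v x y : V) : (blk G v x ∩ blk G v y).card =
    ((G.neighborFinset v ∩ G.neighborFinset x).filter (fun p => G.Adj y p)).card := by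
  rw [← Finset.inter_filter, ← card_filter_nbrT]
  congr 1
  ext p
  simp [blk]

/-- the vertices far from `v`. -/
def farV (G : SimpleGraph V) [DecidableRel G.Adj] (v : V) : Finset V :=
  Finset.univ.filter (fun w => w ≠ v ∧ ¬ G.Adj v w)

theorem mem_farV {v w : V} : w ∈ farV G v ↔ w ≠ v ∧ ¬ G.Adj v w := by
  simp [farV]

variable (h : G.IsSRGWith 100 22 0 6)
include h

theorem card_nbrT (v : V) : Fintype.card (NbrT G v) = 22 := by
  rw [← srg_card_nbr h v]
  apply Fintype.card_of_subtype
  intro x
  rw [SimpleGraph.mem_neighborFinset]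

theorem card_farV (v : V) : (farV G v).card = 77 := by
  have e : farV G v = (insert v (G.neighborFinset v))ᶜ := by
    ext y
    simp only [farV, Finset.mem_filter, Finset.mem_univ, true_and, Finset.mem_compl,
      Finset.mem_insert, SimpleGraph.mem_neighborFinset]
    tauto
  rw [e, Finset.card_compl, h.card, Finset.card_insert_of_notMem, srg_card_nbr h]
  simp

theorem card_blk {v w : V} (hw : w ∈ farV G v) : (blk G v w).card = 6 := by
  rw [mem_farV] at hw
  rw [card_blk_eq, srg_inter_six h hw.1.symm hw.2]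

theorem blk_disjoint {v x y : V} (hxy : G.Adj x y) : Disjoint (blk G v x) (blk G v y) := by
  rw [Finset.disjoint_left]
  intro p h1 h2
  rw [mem_blk] at h1 h2
  exact srg_no_triangle h hxy h1 h2

theorem blk_inter_two {v x y : V} (hx : x ∈ farV G v) (hy : y ∈ farV G v) (hne : x ≠ y)
    (hxy : ¬ G.Adj x y) : (blk G v x ∩ blk G v y).card = 2 := by
  rw [mem_farV] at hx hy
  rw [card_blk_inter_eq]
  apply far_inter_two h hx.1 hx.2
  simp only [farSet, Finset.mem_filter, Finset.mem_univ, true_and]
  exact ⟨hy.1, hy.2, hne.symm, hxy⟩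

theorem blk_inter_le {v x y : V} (hx : x ∈ farV G v) (hy : y ∈ farV G v) (hne : x ≠ y) :
    (blk G v x ∩ blk G v y).card ≤ 2 := by
  by_cases hxy : G.Adj x y
  · rw [Finset.disjoint_iff_inter_eq_empty.1 (blk_disjoint h hxy)]; simp
  · rw [blk_inter_two h hx hy hne hxy]

theorem blk_injOn {v x y : V} (hx : x ∈ farV G v) (hy : y ∈ farV G v)
    (e : blk G v x = blk G v y) : x = y := by
  by_contra hne
  have h1 := blk_inter_le h hx hy hne
  rw [e, Finset.inter_self, card_blk h hy] at h1
  omega

theorem blocks_steiner (v : V) : IsSteinerSystem 3 6 (blocks G v) := by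
  refine ⟨?_, ?_⟩
  · rintro b ⟨w, h1, h2, rfl⟩
    exact card_blk h (mem_farV.2 ⟨h1, h2⟩)
  · intro s hs
    have huniq : ∀ x ∈ farV G v, ∀ y ∈ farV G v, s ⊆ blk G v x → s ⊆ blk G v y → x = y := by
      intro x hx y hy h1 h2
      by_contra hne
      have h3 := blk_inter_le h hx hy hne
      have h4 := Finset.card_le_card (Finset.subset_inter h1 h2)
      omega
    have hex : ∃ w ∈ farV G v, s ⊆ blk G v w := by
      have hsub : (farV G v).biUnion (fun w => (blk G v w).powersetCard 3) ⊆
          (Finset.univ : Finset (NbrT G v)).powersetCard 3 := by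
        intro t ht
        rw [Finset.mem_biUnion] at ht
        obtain ⟨w, _, hw⟩ := ht
        rw [Finset.mem_powersetCard] at hw ⊢
        exact ⟨Finset.subset_univ _, hw.2⟩
      have hcard : ((farV G v).biUnion (fun w => (blk G v w).powersetCard 3)).card = 1540 := by
        rw [Finset.card_biUnion]
        · rw [Finset.sum_congr rfl (fun w hw => by
            rw [Finset.card_powersetCard, card_blk h hw]), Finset.sum_const, card_farV h]
          rfl
        · intro x hx y hy hne
          show Disjoint ((blk G v x).powersetCard 3) ((blk G v y).powersetCard 3)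
          rw [Finset.disjoint_left]
          intro t h1 h2
          rw [Finset.mem_powersetCard] at h1 h2
          have h3 := blk_inter_le h hx hy hne
          have h4 := Finset.card_le_card (Finset.subset_inter h1.1 h2.1)
          omega
      have heq := Finset.eq_of_subset_of_card_le hsub (by
        rw [hcard, Finset.card_powersetCard, Finset.card_univ, card_nbrT h]
        decide)
      have hmem : s ∈ (Finset.univ : Finset (NbrT G v)).powersetCard 3 :=
        Finset.mem_powersetCard.2 ⟨Finset.subset_univ _, hs⟩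
      rw [← heq, Finset.mem_biUnion] at hmem
      obtain ⟨w, hw, h1⟩ := hmem
      exact ⟨w, hw, (Finset.mem_powersetCard.1 h1).1⟩
    obtain ⟨w, hw, hsw⟩ := hex
    refine ⟨blk G v w, ⟨⟨w, (mem_farV.1 hw).1, (mem_farV.1 hw).2, rfl⟩, hsw⟩, ?_⟩
    rintro b ⟨⟨w', h1, h2, rfl⟩, h3⟩
    rw [huniq w' (mem_farV.2 ⟨h1, h2⟩) w hw h3 hsw]

omit h in
/-- the map to the point-block graph. -/
def toPB (G : SimpleGraph V) [DecidableRel G.Adj] (v u : V) : Option (NbrT G v ⊕ blocks G v) :=
  if hu : u = v then none
  else if ha : G.Adj v u then some (Sum.inl ⟨u, ha⟩)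
  else some (Sum.inr ⟨blk G v u, u, hu, ha, rfl⟩)

omit h in
theorem toPB_self (v : V) : toPB G v v = none := by simp [toPB]

omit h in
theorem toPB_nbr {v u : V} (ha : G.Adj v u) : toPB G v u = some (Sum.inl ⟨u, ha⟩) := by
  have : u ≠ v := ha.ne'
  simp [toPB, this, ha]

omit h in
theorem toPB_far {v u : V} (hu : u ≠ v) (ha : ¬ G.Adj v u) :
    toPB G v u = some (Sum.inr ⟨blk G v u, u, hu, ha, rfl⟩) := by
  simp [toPB, hu, ha]

omit h in
theorem vertex_cases (v u : V) : u = v ∨ G.Adj v u ∨ (u ≠ v ∧ ¬ G.Adj v u) := by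
  tauto

theorem toPB_bijective (v : V) : Function.Bijective (toPB G v) := by
  constructor
  · intro a b hab
    rcases vertex_cases (G := G) v a with ha | ha | ha <;>
      rcases vertex_cases (G := G) v b with hb | hb | hb
    · rw [ha, hb]
    · rw [ha, toPB_self, toPB_nbr hb] at hab; exact absurd hab (by simp)
    · rw [ha, toPB_self, toPB_far hb.1 hb.2] at hab; exact absurd hab (by simp)
    · rw [hb, toPB_self, toPB_nbr ha] at hab; exact absurd hab (by simp)
    · rw [toPB_nbr ha, toPB_nbr hb] at hab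
      simpa using hab
    · rw [toPB_nbr ha, toPB_far hb.1 hb.2] at hab; exact absurd hab (by simp)
    · rw [hb, toPB_self, toPB_far ha.1 ha.2] at hab; exact absurd hab (by simp)
    · rw [toPB_far ha.1 ha.2, toPB_nbr hb] at hab; exact absurd hab (by simp)
    · rw [toPB_far ha.1 ha.2, toPB_far hb.1 hb.2] at hab
      have e : blk G v a = blk G v b := by
        have h1 := Sum.inr_injective (Option.some_injective _ hab)
        exact congrArg Subtype.val h1
      exact blk_injOn h (mem_farV.2 ha) (mem_farV.2 hb) e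
  · rintro (_ | ⟨p, hp⟩ | ⟨b, w, h1, h2, rfl⟩)
    · exact ⟨v, toPB_self v⟩
    · exact ⟨p, toPB_nbr hp⟩
    · exact ⟨w, toPB_far h1 h2⟩

theorem toPB_adj (v a b : V) :
    (pointBlockGraph (blocks G v)).Adj (toPB G v a) (toPB G v b) ↔ G.Adj a b := by
  have key : ∀ a b : V, (a = v ∨ (G.Adj v a ∧ b ≠ v) ∨ ((a ≠ v ∧ ¬ G.Adj v a) ∧ (b ≠ v ∧ ¬ G.Adj v b))) →
      ((pointBlockGraph (blocks G v)).Adj (toPB G v a) (toPB G v b) ↔ G.Adj a b) := by
    intro a b hcase
    rcases hcase with rfl | ⟨ha, hbv⟩ | ⟨ha, hb⟩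
    · rw [toPB_self, pb_adj_none]
      rcases vertex_cases (G := G) a b with rfl | hb | hb
      · rw [toPB_self]; simp
      · rw [toPB_nbr hb]; simp [hb]
      · rw [toPB_far hb.1 hb.2]; simp [hb.2]
    · rw [toPB_nbr ha]
      by_cases hb : G.Adj v b
      · rw [toPB_nbr hb]
        constructor
        · intro h1; exact absurd h1 (pb_adj_inl_inl _ _)
        · intro h1; exact absurd h1 (srg_no_triangle h ha hb)
      · rw [toPB_far hbv hb, pb_adj_inl_inr]
        show (⟨a, ha⟩ : NbrT G v) ∈ blk G v b ↔ _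
        rw [mem_blk]
        exact ⟨fun h1 => h1.symm, fun h1 => h1.symm⟩
    · rw [toPB_far ha.1 ha.2, toPB_far hb.1 hb.2, pb_adj_inr_inr]
      show (_ ≠ _ ∧ Disjoint (blk G v a) (blk G v b)) ↔ _
      constructor
      · rintro ⟨h1, h2⟩
        by_contra hab
        have hne : a ≠ b := by
          rintro rfl
          exact h1 rfl
        have h3 := blk_inter_two h (mem_farV.2 ha) (mem_farV.2 hb) hne hab
        rw [Finset.disjoint_iff_inter_eq_empty.1 h2] at h3
        simp at h3
      · intro hab
        refine ⟨?_, blk_disjoint h hab⟩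
        intro e
        have e' : blk G v a = blk G v b := congrArg Subtype.val e
        exact hab.ne (blk_injOn h (mem_farV.2 ha) (mem_farV.2 hb) e')
  rcases vertex_cases (G := G) v a with ha | ha | ha
  · exact key a b (Or.inl ha)
  · by_cases hbv : b = v
    · rw [SimpleGraph.adj_comm, SimpleGraph.adj_comm G]
      exact key b a (Or.inl hbv)
    · exact key a b (Or.inr (Or.inl ⟨ha, hbv⟩))
  · rcases vertex_cases (G := G) v b with hb | hb | hb
    · rw [SimpleGraph.adj_comm, SimpleGraph.adj_comm G]
      exact key b a (Or.inl hb)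
    · rw [SimpleGraph.adj_comm, SimpleGraph.adj_comm G]
      exact key b a (Or.inr (Or.inl ⟨hb, ha.1⟩))
    · exact key a b (Or.inr (Or.inr ⟨ha, hb⟩))

/-- every strongly regular graph with parameters (100, 22, 0, 6) has the standard numbering. -/
theorem exists_model_of_srg : ∃ ι : V → ℕ, GModel G 100 rowHS ι := by
  have hne : Nonempty V := by
    rw [← Fintype.card_pos_iff, h.card]; norm_num
  obtain ⟨v⟩ := hne
  obtain ⟨ι, M, _⟩ := exists_model_HS (card_nbrT h v) (blocks_steiner h v)
  refine ⟨fun u => ι (toPB G v u), ?_, ?_, ?_, ?_⟩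
  · exact M.inj.comp (toPB_bijective h v).1
  · intro u; exact M.lt _
  · intro i hi
    obtain ⟨x, hx⟩ := M.surj i hi
    obtain ⟨u, rfl⟩ := (toPB_bijective h v).2 x
    exact ⟨u, hx⟩
  · intro a b
    rw [← toPB_adj h v a b, M.adj]

end

/-- two graphs with the same table are isomorphic. -/
theorem GModel.iso {V W : Type*} {G : SimpleGraph V} {H : SimpleGraph W} {n : ℕ} {row : ℕ → ℕ}
    {ι : V → ℕ} {κ : W → ℕ} (M : GModel G n row ι) (M' : GModel H n row κ) : Nonempty (G ≃g H) := by
  have hex : ∀ v : V, ∃ w : W, κ w = ι v := fun v => M'.surj _ (M.lt v)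
  choose f hf using hex
  have hbij : Function.Bijective f := by
    constructor
    · intro a b hab
      apply M.inj
      rw [← hf a, ← hf b, hab]
    · intro w
      obtain ⟨v, hv⟩ := M.surj _ (M'.lt w)
      exact ⟨v, M'.inj (by rw [hf, hv])⟩
  refine ⟨⟨Equiv.ofBijective f hbij, ?_⟩⟩
  intro a b
  show H.Adj (f a) (f b) ↔ G.Adj a b
  rw [M.adj, M'.adj, hf, hf]

end Cfsg.Agent.Lib.Helper27
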