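import Cfsg.Agent.Lib.Helper27.WArc

/-!
# Transport of arcs of an abstract plane of order four to the standard model
-/

set_option autoImplicit false

namespace Cfsg.Agent.Lib.Helper27

open Cfsg
open scoped Pointwise

section
variable {α : Type*} [Fintype α] [DecidableEq α] {L : Set (Finset α)} {f : α → GolayPt}

theorem mu_injective (hf : Function.Injective f) :
    Function.Injective (fun X : Finset α => mask (X.image f)) := fun _ _ h =>
  Finset.image_injective hf (mask_injective h)

theorem mu_card (hf : Function.Injective f) (X : Finset α) : pc (mask (X.image f)) = X.card := by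
  rw [← card_eq_pc, Finset.card_image_of_injective _ hf]

theorem mu_subset (hf : Function.Injective f) (X Y : Finset α) :
    X ⊆ Y ↔ mask (X.image f) &&& mask (Y.image f) = mask (X.image f) := by
  rw [← subset_iff_mask, Finset.image_subset_image_iff hf]

theorem mu_idx (hr : ∀ p, p ∉ unmask 14680064 ↔ p ∈ Set.range f) (X : Finset α) :
    ∀ a ∈ X.image f, idx a < 21 := by
  intro a ha
  obtain ⟨x, -, rfl⟩ := Finset.mem_image.1 ha
  have h1 : f x ∉ PR := (hr _).2 ⟨x, rfl⟩
  rw [mem_PR, not_not] at h1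
  exact h1

theorem mu_surj (hr : ∀ p, p ∉ unmask 14680064 ↔ p ∈ Set.range f) {m : ℕ} (hm : m < 2097152) :
    ∃ X : Finset α, mask (X.image f) = m := by
  refine ⟨Finset.univ.filter (fun a => f a ∈ unmask m), ?_⟩
  have : (Finset.univ.filter (fun a => f a ∈ unmask m)).image f = unmask m := by
    ext p
    simp only [Finset.mem_image, Finset.mem_filter, Finset.mem_univ, true_and]
    constructor
    · rintro ⟨a, ha, rfl⟩; exact ha
    · intro hp
      have h1 : p ∉ PR := by
        rw [mem_PR, not_not]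
        by_contra hlt
        rw [mem_unmask] at hp
        have : m.testBit (idx p) = false := by
          apply Nat.testBit_eq_false_of_lt
          exact lt_of_lt_of_le hm (by
            have : (2097152 : ℕ) = 2 ^ 21 := by norm_num
            rw [this]
            exact Nat.pow_le_pow_right (by norm_num) (by omega))
        rw [this] at hp
        exact Bool.noConfusion hp
      obtain ⟨a, rfl⟩ := (hr p).1 h1
      exact ⟨a, hp, rfl⟩
  rw [this, mask_unmask (lt_trans hm (by norm_num))]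

theorem inter_card_eq (hf : Function.Injective f)
    (hr : ∀ p, p ∉ unmask 14680064 ↔ p ∈ Set.range f) (l X : Finset α) :
    pc (mask (l.image f ∪ unmask 14680064) &&& mask (X.image f)) = (l ∩ X).card := by
  rw [← mask_inter, ← card_eq_pc]
  have : (l.image f ∪ unmask 14680064) ∩ X.image f = (l ∩ X).image f := by
    rw [Finset.image_inter _ _ hf]
    ext p
    simp only [Finset.mem_inter, Finset.mem_union]
    constructor
    · rintro ⟨h1 | h1, h2⟩
      · exact ⟨h1, h2⟩
      · exfalso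
        obtain ⟨x, -, rfl⟩ := Finset.mem_image.1 h2
        exact (hr _).2 ⟨x, rfl⟩ h1
    · rintro ⟨h1, h2⟩
      exact ⟨Or.inl h1, h2⟩
  rw [this, Finset.card_image_of_injective _ hf]

theorem exists_line (hr : ∀ p, p ∉ unmask 14680064 ↔ p ∈ Set.range f)
    (hB : ∀ b : Finset α, b ∈ L ↔ b.image f ∪ unmask 14680064 ∈ octads) {o : ℕ} (ho : o ∈ OL21) :
    ∃ l ∈ L, mask (l.image f ∪ unmask 14680064) = o := by
  obtain ⟨h1, h2, h3⟩ := OL21_spec o ho
  have e1 : (Finset.univ.filter (fun a => f a ∈ unmask o)).image f ∪ unmask 14680064 = unmask o := by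
    have hRO : unmask 14680064 ⊆ unmask o := by
      rw [subset_iff_mask, mask_unmask (by norm_num), mask_unmask (isCode_lt h1)]; exact h3
    ext p
    simp only [Finset.mem_union, Finset.mem_image, Finset.mem_filter, Finset.mem_univ, true_and]
    constructor
    · rintro (⟨a, ha, rfl⟩ | h)
      · exact ha
      · exact hRO h
    · intro hp
      by_cases hpR : p ∈ unmask 14680064
      · exact Or.inr hpR
      · obtain ⟨a, rfl⟩ := (hr p).1 hpR
        exact Or.inl ⟨a, hp, rfl⟩
  refine ⟨_, ?_, by rw [e1, mask_unmask (isCode_lt h1)]⟩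
  rw [hB, e1]; exact unmask_mem_octads h1 h2

theorem mu_arc (hf : Function.Injective f) (hr : ∀ p, p ∉ unmask 14680064 ↔ p ∈ Set.range f)
    (hB : ∀ b : Finset α, b ∈ L ↔ b.image f ∪ unmask 14680064 ∈ octads) (X : Finset α) :
    (∀ l ∈ L, (l ∩ X).card ≤ 2) ↔ arcB (mask (X.image f)) = true := by
  rw [arcB_iff]
  constructor
  · intro h o ho
    obtain ⟨l, hl, rfl⟩ := exists_line hr hB ho
    rw [inter_card_eq hf hr]; exact h l hl
  · intro h l hl
    rw [← inter_card_eq hf hr]
    apply h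
    rw [mem_OL21_iff]
    exact ⟨(hB l).1 hl, Finset.subset_union_right⟩

theorem hyperoval_iff (hf : Function.Injective f)
    (hr : ∀ p, p ∉ unmask 14680064 ↔ p ∈ Set.range f)
    (hB : ∀ b : Finset α, b ∈ L ↔ b.image f ∪ unmask 14680064 ∈ octads) (X : Finset α) :
    (X.card = 6 ∧ ∀ l ∈ L, (l ∩ X).card ≤ 2) ↔ mask (X.image f) ∈ HL := by
  rw [mu_arc hf hr hB]
  constructor
  · rintro ⟨h1, h2⟩
    exact HL_complete _ (by rw [Finset.card_image_of_injective _ hf, h1]) (mu_idx hr X) h2
  · intro h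
    obtain ⟨-, h2, h3⟩ := HL_spec _ h
    exact ⟨by rw [← mu_card hf, h2], h3⟩

theorem quadrangle_iff (hf : Function.Injective f)
    (hr : ∀ p, p ∉ unmask 14680064 ↔ p ∈ Set.range f)
    (hB : ∀ b : Finset α, b ∈ L ↔ b.image f ∪ unmask 14680064 ∈ octads) (X : Finset α) :
    (X.card = 4 ∧ ∀ l ∈ L, (l ∩ X).card ≤ 2) ↔ mask (X.image f) ∈ QL := by
  rw [mu_arc hf hr hB]
  constructor
  · rintro ⟨h1, h2⟩
    exact QL_complete _ (by rw [Finset.card_image_of_injective _ hf, h1]) (mu_idx hr X) h2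
  · intro h
    obtain ⟨-, h2, h3⟩ := QL_spec _ h
    exact ⟨by rw [← mu_card hf, h2], h3⟩

end

theorem plane_hyperovals {α : Type*} [Fintype α] [DecidableEq α] (hα : Fintype.card α = 21)
    (L : Set (Finset α)) (hL : IsSteinerSystem 2 5 L) :
    {S : Finset α | (S.card = 4 ∧ ∀ l ∈ L, (l ∩ S).card ≤ 2)}.ncard = 2520 ∧
    {H : Finset α | (H.card = 6 ∧ ∀ l ∈ L, (l ∩ H).card ≤ 2)}.ncard = 168 ∧
    ∀ S : Finset α, (S.card = 4 ∧ ∀ l ∈ L, (l ∩ S).card ≤ 2) →
      ∃! H : Finset α, (H.card = 6 ∧ ∀ l ∈ L, (l ∩ H).card ≤ 2) ∧ S ⊆ H := by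
  obtain ⟨f, hf, hr, hB⟩ := emb3 hα hL
  refine ⟨?_, ?_, ?_⟩
  · rw [← QL_length]
    apply ncard_of_list _ _ (mu_injective hf) QL QL_nodup
    · intro X hX
      exact (quadrangle_iff hf hr hB X).1 hX
    · intro m hm
      obtain ⟨X, rfl⟩ := mu_surj hr (QL_spec m hm).1
      exact ⟨X, (quadrangle_iff hf hr hB X).2 hm, rfl⟩
  · rw [← HL_length]
    apply ncard_of_list _ _ (mu_injective hf) HL HL_nodup
    · intro X hX
      exact (hyperoval_iff hf hr hB X).1 hX
    · intro m hm
      obtain ⟨X, rfl⟩ := mu_surj hr (HL_spec m hm).1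
      exact ⟨X, (hyperoval_iff hf hr hB X).2 hm, rfl⟩
  · intro S hS
    have hS' := (quadrangle_iff hf hr hB S).1 hS
    obtain ⟨h, hh, hsub⟩ := QL_exists _ hS'
    obtain ⟨H, rfl⟩ := mu_surj hr (HL_spec h hh).1
    refine ⟨H, ⟨(hyperoval_iff hf hr hB H).2 hh, (mu_subset hf S H).2 hsub⟩, ?_⟩
    rintro H' ⟨h1, h2⟩
    have h1' := (hyperoval_iff hf hr hB H').1 h1
    apply mu_injective hf
    apply HL_inter _ hh _ h1'
    rw [← mask_inter, ← card_eq_pc, ← Finset.image_inter _ _ hf,
      Finset.card_image_of_injective _ hf]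
    have h3 : S ⊆ H ∩ H' := Finset.subset_inter ((mu_subset hf S H).2 hsub) h2
    have := Finset.card_le_card h3
    rw [hS.1] at this
    exact this

end Cfsg.Agent.Lib.Helper27
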