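import Cfsg.Agent.Lib.Helper27.WChain

/-!
# Automorphism groups of embedded systems
-/

set_option autoImplicit false

namespace Cfsg.Agent.Lib.Helper27

open Cfsg
open scoped Pointwise

/-- the octads through `R`. -/
def octThru (R : Finset GolayPt) : Set (Finset GolayPt) := {O | O ∈ octads ∧ R ⊆ O}

/-- the permutations fixing `R` pointwise and preserving the octads through `R`. -/
def autR (R : Finset GolayPt) : Subgroup (Equiv.Perm GolayPt) where
  carrier := {h | (∀ p ∈ R, h p = p) ∧ h • octThru R = octThru R}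
  one_mem' := ⟨fun _ _ => rfl, one_smul _ _⟩
  mul_mem' := by
    rintro a b ⟨ha, ha'⟩ ⟨hb, hb'⟩
    refine ⟨fun p hp => ?_, ?_⟩
    · rw [Equiv.Perm.mul_apply, hb p hp, ha p hp]
    · rw [mul_smul, hb', ha']
  inv_mem' := by
    rintro a ⟨ha, ha'⟩
    refine ⟨fun p hp => ?_, ?_⟩
    · rw [Equiv.Perm.inv_eq_iff_eq, ha p hp]
    · rw [inv_smul_eq_iff, ha']

theorem mem_autR {R : Finset GolayPt} {h : Equiv.Perm GolayPt} :
    h ∈ autR R ↔ (∀ p ∈ R, h p = p) ∧ h • octThru R = octThru R := Iff.rfl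

theorem mem_autR_of_subset {R : Finset GolayPt} {h : Equiv.Perm GolayPt} (h1 : ∀ p ∈ R, h p = p)
    (h2 : ∀ O ∈ octads, R ⊆ O → h • O ∈ octads) : h ∈ autR R := by
  refine ⟨h1, ?_⟩
  have hfin : (octThru R).Finite := Set.toFinite _
  have := (MulAction.mem_stabilizer_set_iff_smul_set_subset (G := Equiv.Perm GolayPt) (a := h)
    hfin).2 (by
      rintro _ ⟨O, ⟨hO, hRO⟩, rfl⟩
      refine ⟨h2 O hO hRO, ?_⟩
      have e : h • R = R := smul_eq_of_fixes h1
      show R ⊆ h • O
      rw [← e]; exact Finset.smul_finset_subset_smul_finset hRO)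
  exact this

theorem autR_smul_mem {R : Finset GolayPt} {h : Equiv.Perm GolayPt} (hh : h ∈ autR R)
    {O : Finset GolayPt} (hO : O ∈ octads) (hRO : R ⊆ O) : h • O ∈ octads := by
  have : h • O ∈ h • octThru R := ⟨O, ⟨hO, hRO⟩, rfl⟩
  rw [hh.2] at this
  exact this.1

theorem exists_autEquiv {α : Type*} [Fintype α] [DecidableEq α] {B : Set (Finset α)}
    {R : Finset GolayPt} (h : StdEmbAt R B) :
    ∃ (f : α → GolayPt) (φ : setSystemAut B ≃* autR R), Function.Injective f ∧
      (∀ p, p ∉ R ↔ p ∈ Set.range f) ∧ (∀ b : Finset α, b ∈ B ↔ b.image f ∪ R ∈ octads) ∧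
      ∀ (g : setSystemAut B) (a : α), (φ g : Equiv.Perm GolayPt) (f a) = f ((g : Equiv.Perm α) a) := by
  obtain ⟨f, hf, hr, hB⟩ := h
  let e : α ≃ {p : GolayPt // p ∉ R} := Equiv.ofBijective (fun a => ⟨f a, (hr _).2 ⟨a, rfl⟩⟩)
    ⟨fun a a' h => hf (congrArg Subtype.val h), fun ⟨p, hp⟩ => by
      obtain ⟨a, rfl⟩ := (hr p).1 hp
      exact ⟨a, rfl⟩⟩
  have he : ∀ a, ((e a : {p : GolayPt // p ∉ R}) : GolayPt) = f a := fun a => rfl
  let Ψ : Equiv.Perm α →* Equiv.Perm GolayPt := Equiv.Perm.extendDomainHom e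
  have hΨ : ∀ (g : Equiv.Perm α) (a : α), Ψ g (f a) = f (g a) := by
    intro g a
    exact Equiv.Perm.extendDomain_apply_image g e a
  have hΨR : ∀ (g : Equiv.Perm α), ∀ p ∈ R, Ψ g p = p := by
    intro g p hp
    exact Equiv.Perm.extendDomain_apply_not_subtype g e (by simpa using hp)
  have hΨb : ∀ (g : Equiv.Perm α) (b : Finset α),
      (g • b).image f ∪ R = Ψ g • (b.image f ∪ R) := by
    intro g b
    rw [Finset.smul_finset_union, smul_eq_of_fixes (hΨR g)]
    congr 1
    ext p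
    simp only [Finset.mem_image, Finset.mem_smul_finset]
    constructor
    · rintro ⟨_, ⟨a, ha, rfl⟩, rfl⟩
      exact ⟨f a, ⟨a, ha, rfl⟩, hΨ g a⟩
    · rintro ⟨_, ⟨a, ha, rfl⟩, rfl⟩
      exact ⟨g a, ⟨a, ha, rfl⟩, (hΨ g a).symm⟩
  have hpre : ∀ O ∈ octads, R ⊆ O → ∃ b ∈ B, b.image f ∪ R = O := by
    intro O hO hRO
    have e1 : (Finset.univ.filter (fun a => f a ∈ O)).image f ∪ R = O := by
      ext p
      simp only [Finset.mem_union, Finset.mem_image, Finset.mem_filter, Finset.mem_univ, true_and]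
      constructor
      · rintro (⟨a, ha, rfl⟩ | h)
        · exact ha
        · exact hRO h
      · intro hp
        by_cases hpR : p ∈ R
        · exact Or.inr hpR
        · obtain ⟨a, rfl⟩ := (hr p).1 hpR
          exact Or.inl ⟨a, hp, rfl⟩
    exact ⟨_, by rw [hB, e1]; exact hO, e1⟩
  have hmap : (setSystemAut B).map Ψ = autR R := by
    ext h
    constructor
    · rintro ⟨g, hg, rfl⟩
      apply mem_autR_of_subset (hΨR g)
      intro O hO hRO
      obtain ⟨b, hb, rfl⟩ := hpre O hO hRO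
      rw [← hΨb, ← hB]
      have hg' : g • B = B := hg
      rw [← hg']
      exact ⟨b, hb, rfl⟩
    · intro hh
      have hp : ∀ x : GolayPt, h x ∉ R ↔ x ∉ R := by
        intro x
        constructor
        · intro hx hx'
          apply hx
          rw [hh.1 x hx']; exact hx'
        · intro hx hx'
          apply hx
          have := hh.1 _ hx'
          rw [← h.injective this]; exact hx'
      let g : Equiv.Perm α := e.trans ((h.subtypePerm hp).trans e.symm)
      have hg : Ψ g = h := by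
        apply Equiv.ext
        intro p
        by_cases hpR : p ∈ R
        · rw [hΨR g p hpR, hh.1 p hpR]
        · obtain ⟨a, rfl⟩ := (hr p).1 hpR
          rw [hΨ]
          show ((e (e.symm (h.subtypePerm hp (e a))) : {p : GolayPt // p ∉ R}) : GolayPt) = h (f a)
          rw [Equiv.apply_symm_apply]
          rfl
      refine ⟨g, ?_, hg⟩
      have hfin : B.Finite := Set.toFinite _
      apply (MulAction.mem_stabilizer_set_iff_smul_set_subset (G := Equiv.Perm α) (a := g) hfin).2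
      rintro _ ⟨b, hb, rfl⟩
      show g • b ∈ B
      rw [hB, hΨb, hg]
      exact autR_smul_mem hh ((hB b).1 hb) Finset.subset_union_right
  refine ⟨f, ((setSystemAut B).equivMapOfInjective Ψ (Equiv.Perm.extendDomainHom_injective e)).trans
    (MulEquiv.subgroupCongr hmap), hf, hr, hB, ?_⟩
  intro g a
  exact hΨ g a

/-- transport of multiple transitivity. -/
theorem pretransitive_of_autR {α : Type*} [Fintype α] [DecidableEq α] {B : Set (Finset α)}
    {R : Finset GolayPt} (h : StdEmbAt R B) (n : ℕ)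
    (htr : ∀ x y : Fin n ↪ GolayPt, (∀ i, x i ∉ R) → (∀ i, y i ∉ R) →
      ∃ g ∈ autR R, ∀ i, g (x i) = y i) :
    MulAction.IsMultiplyPretransitive (setSystemAut B) α n := by
  obtain ⟨f, φ, hf, hr, -, hφ⟩ := exists_autEquiv h
  constructor
  intro x y
  obtain ⟨g, hg, hxy⟩ := htr (x.trans ⟨f, hf⟩) (y.trans ⟨f, hf⟩)
    (fun i => (hr _).2 ⟨x i, rfl⟩) (fun i => (hr _).2 ⟨y i, rfl⟩)
  refine ⟨φ.symm ⟨g, hg⟩, ?_⟩
  ext i
  apply hf
  have := hφ (φ.symm ⟨g, hg⟩) (x i)
  rw [MulEquiv.apply_symm_apply] at this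
  show f (((φ.symm ⟨g, hg⟩ : setSystemAut B) : Equiv.Perm α) (x i)) = f (y i)
  rw [← this]
  exact hxy i

end Cfsg.Agent.Lib.Helper27
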