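import Cfsg.Agent.Lib.Helper27.WAut
import Cfsg.Agent.Lib.Helper27.Trans
import Cfsg.Agent.Lib.Helper27.StabOrders

/-!
# The groups `autR R` for `R` of size 0, 1, 2
-/

set_option autoImplicit false

namespace Cfsg.Agent.Lib.Helper27

open Cfsg
open scoped Pointwise

theorem mem_M24_of_octads {h : Equiv.Perm GolayPt} (hh : ∀ O ∈ octads, h • O ∈ octads) :
    h ∈ M24 := by
  rw [M24_eq_setSystemAut_octads]
  apply (MulAction.mem_stabilizer_set_iff_smul_set_subset (G := Equiv.Perm GolayPt) (a := h)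
    octads_finite).2
  rintro _ ⟨O, hO, rfl⟩
  exact hh O hO

theorem mem_autR_of_M24 {R : Finset GolayPt} {h : Equiv.Perm GolayPt} (hh : h ∈ M24)
    (h1 : ∀ p ∈ R, h p = p) : h ∈ autR R :=
  mem_autR_of_subset h1 (fun _ hO _ => smul_mem_octads hh hO)

theorem autR_empty : autR ∅ = M24 := by
  ext h
  constructor
  · intro hh
    exact mem_M24_of_octads (fun O hO => autR_smul_mem hh hO (Finset.empty_subset _))
  · intro hh
    exact mem_autR_of_M24 hh (by simp)

theorem even_inter_of_autR {R : Finset GolayPt} {h : Equiv.Perm GolayPt} (hh : h ∈ autR R)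
    {O : Finset GolayPt} (hO : O ∈ octads) :
    ∀ O' ∈ octads, R ⊆ O' → Even ((h • O) ∩ O').card := by
  intro O' hO' hR
  have h1 := autR_smul_mem ((autR R).inv_mem hh) hO' hR
  have e : (h • O) ∩ O' = h • (O ∩ h⁻¹ • O') := by
    rw [Finset.smul_finset_inter, smul_inv_smul]
  rw [e, Finset.card_smul_finset]
  rcases octad_inter_card hO h1 with h | h | h | h <;> rw [h] <;> decide

/-- the outcome of the duality lemma for the image of an octad. -/
theorem autR_dual {R : Finset GolayPt} (hd : DualProp R) {h : Equiv.Perm GolayPt} (hh : h ∈ autR R)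
    {O : Finset GolayPt} (hO : O ∈ octads) :
    ∃ E ⊆ R, Even E.card ∧ symmDiff (h • O) E ∈ supports (golayCode : Set (GolayPt → ZMod 2)) := by
  obtain ⟨E, hE, hs⟩ := hd (h • O) (even_inter_of_autR hh hO)
  refine ⟨E, hE, ?_, hs⟩
  have h1 := card_symmDiff_add (h • O) E
  have h2 := card_of_mem_supports hs
  have h3 : (h • O).card = 8 := by rw [Finset.card_smul_finset]; exact hO.2
  rw [Nat.even_iff]
  omega

theorem autR_R1_le : autR (unmask 8388608) ≤ M24 := by
  intro h hh
  apply mem_M24_of_octads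
  intro O hO
  obtain ⟨E, hE, hev, hs⟩ := autR_dual dualProp_R1 hh hO
  have hc : E.card ≤ 1 := le_trans (Finset.card_le_card hE) (by decide)
  have h0 : E = ∅ := by
    rw [← Finset.card_eq_zero]
    rw [Nat.even_iff] at hev
    omega
  rw [h0] at hs
  have e : symmDiff (h • O) ∅ = h • O := by
    rw [← Finset.bot_eq_empty, symmDiff_bot]
  rw [e] at hs
  exact ⟨hs, by rw [Finset.card_smul_finset]; exact hO.2⟩

theorem mem_autR_R1 {h : Equiv.Perm GolayPt} :
    h ∈ autR (unmask 8388608) ↔ h ∈ M24 ∧ h (pt 23) = pt 23 := by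
  constructor
  · intro hh
    exact ⟨autR_R1_le hh, hh.1 _ (by decide)⟩
  · rintro ⟨h1, h2⟩
    apply mem_autR_of_M24 h1
    intro p hp
    have : p = pt 23 := (by decide : ∀ p ∈ unmask 8388608, p = pt 23) p hp
    rw [this, h2]

/-- the point stabiliser, as a subgroup of `M24`, is isomorphic to `autR` of the point. -/
theorem exists_equiv_R1 :
    Nonempty (MulAction.stabilizer M24 (pt 23) ≃* autR (unmask 8388608)) := by
  have hmap : (MulAction.stabilizer M24 (pt 23)).map M24.subtype = autR (unmask 8388608) := by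
    ext h
    rw [mem_autR_R1]
    constructor
    · rintro ⟨g, hg, rfl⟩
      exact ⟨g.2, hg⟩
    · rintro ⟨h1, h2⟩
      exact ⟨⟨h, h1⟩, h2, rfl⟩
  exact ⟨((MulAction.stabilizer M24 (pt 23)).equivMapOfInjective M24.subtype
    (Subgroup.subtype_injective _)).trans (MulEquiv.subgroupCongr hmap)⟩

theorem trans4_R1 (x y : Fin 4 ↪ GolayPt) (hx : ∀ i, x i ∉ unmask 8388608)
    (hy : ∀ i, y i ∉ unmask 8388608) : ∃ g ∈ autR (unmask 8388608), ∀ i, g (x i) = y i := by
  have h23 : pt 23 ∈ unmask 8388608 := by decide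
  have hx' : Function.Injective (Fin.cons (pt 23) x : Fin 5 → GolayPt) := by
    rw [Fin.cons_injective_iff]
    refine ⟨?_, x.injective⟩
    rintro ⟨i, hi⟩
    exact hx i (hi ▸ h23)
  have hy' : Function.Injective (Fin.cons (pt 23) y : Fin 5 → GolayPt) := by
    rw [Fin.cons_injective_iff]
    refine ⟨?_, y.injective⟩
    rintro ⟨i, hi⟩
    exact hy i (hi ▸ h23)
  obtain ⟨g, hg, h⟩ := five_transitive ⟨_, hx'⟩ ⟨_, hy'⟩
  refine ⟨g, mem_autR_R1.2 ⟨hg, h 0⟩, fun i => h i.succ⟩

/-! ### the pair -/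

/-- the transposition of the two points of the pair. -/
def sw2 : Equiv.Perm GolayPt := Equiv.swap (pt 22) (pt 23)

theorem mem_R2 (p : GolayPt) : p ∈ unmask 12582912 ↔ p = pt 22 ∨ p = pt 23 := by
  revert p; decide

theorem R2_eq : unmask 12582912 = {pt 22, pt 23} := by decide

theorem sw2_smul_of_one {X : Finset GolayPt} (h : (X ∩ unmask 12582912).card = 1) :
    sw2 • X = symmDiff X (unmask 12582912) := by
  have hne : pt 22 ≠ pt 23 := by decide
  have hx : (pt 22 ∈ X ∧ pt 23 ∉ X) ∨ (pt 22 ∉ X ∧ pt 23 ∈ X) := by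
    by_cases h1 : pt 22 ∈ X <;> by_cases h2 : pt 23 ∈ X
    · exfalso
      have : unmask 12582912 ⊆ X ∩ unmask 12582912 := by
        intro p hp
        rcases (mem_R2 p).1 hp with rfl | rfl
        · exact Finset.mem_inter.2 ⟨h1, hp⟩
        · exact Finset.mem_inter.2 ⟨h2, hp⟩
      have h3 := Finset.card_le_card this
      rw [h] at h3
      revert h3; decide
    · exact Or.inl ⟨h1, h2⟩
    · exact Or.inr ⟨h1, h2⟩
    · exfalso
      obtain ⟨p, hp⟩ := Finset.card_eq_one.1 h
      have hp' : p ∈ X ∩ unmask 12582912 := by rw [hp]; exact Finset.mem_singleton_self p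
      rw [Finset.mem_inter] at hp'
      rcases (mem_R2 p).1 hp'.2 with rfl | rfl
      · exact h1 hp'.1
      · exact h2 hp'.1
  ext p
  rw [← Finset.inv_smul_mem_iff, Finset.mem_symmDiff, mem_R2]
  have e : sw2⁻¹ • p = sw2 p := by
    unfold sw2; rw [Equiv.swap_inv]; rfl
  rw [e]
  by_cases h1 : p = pt 22
  · subst h1
    have : sw2 (pt 22) = pt 23 := Equiv.swap_apply_left _ _
    rw [this]
    tauto
  · by_cases h2 : p = pt 23
    · subst h2
      have : sw2 (pt 23) = pt 22 := Equiv.swap_apply_right _ _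
      rw [this]
      tauto
    · have : sw2 p = p := Equiv.swap_apply_of_ne_of_ne h1 h2
      rw [this]
      tauto

theorem sw2_smul_of_ne_one {X : Finset GolayPt} (h : (X ∩ unmask 12582912).card ≠ 1) :
    sw2 • X = X := by
  have hne : pt 22 ≠ pt 23 := by decide
  have hx : (pt 22 ∈ X ↔ pt 23 ∈ X) := by
    by_contra hcon
    apply h
    by_cases h1 : pt 22 ∈ X
    · have h2 : pt 23 ∉ X := fun h2 => hcon ⟨fun _ => h2, fun _ => h1⟩
      have : X ∩ unmask 12582912 = {pt 22} := by
        ext p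
        rw [Finset.mem_inter, mem_R2, Finset.mem_singleton]
        constructor
        · rintro ⟨hp, rfl | rfl⟩
          · rfl
          · exact absurd hp h2
        · rintro rfl
          exact ⟨h1, Or.inl rfl⟩
      rw [this, Finset.card_singleton]
    · have h2 : pt 23 ∈ X := by
        by_contra h2
        exact hcon ⟨fun h => absurd h h1, fun h => absurd h h2⟩
      have : X ∩ unmask 12582912 = {pt 23} := by
        ext p
        rw [Finset.mem_inter, mem_R2, Finset.mem_singleton]
        constructor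
        · rintro ⟨hp, rfl | rfl⟩
          · exact absurd hp h1
          · rfl
        · rintro rfl
          exact ⟨h2, Or.inr rfl⟩
      rw [this, Finset.card_singleton]
  ext p
  rw [← Finset.inv_smul_mem_iff]
  have e : sw2⁻¹ • p = sw2 p := by
    unfold sw2; rw [Equiv.swap_inv]; rfl
  rw [e]
  by_cases h1 : p = pt 22
  · subst h1
    have : sw2 (pt 22) = pt 23 := Equiv.swap_apply_left _ _
    rw [this]; exact hx.symm
  · by_cases h2 : p = pt 23
    · subst h2
      have : sw2 (pt 23) = pt 22 := Equiv.swap_apply_right _ _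
      rw [this]; exact hx
    · have : sw2 p = p := Equiv.swap_apply_of_ne_of_ne h1 h2
      rw [this]

/-- for the image `Z` of an octad: either `Z` is an octad, or it meets the pair once and its
transposed image is an octad. -/
theorem autR_R2_cases {h : Equiv.Perm GolayPt} (hh : h ∈ autR (unmask 12582912))
    {O : Finset GolayPt} (hO : O ∈ octads) :
    h • O ∈ octads ∨ (((h • O) ∩ unmask 12582912).card = 1 ∧
      symmDiff (h • O) (unmask 12582912) ∈ octads) := by
  obtain ⟨E, hE, hev, hs⟩ := autR_dual dualProp_R2 hh hO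
  have h8 : (h • O).card = 8 := by rw [Finset.card_smul_finset]; exact hO.2
  have hc2 : (unmask 12582912).card = 2 := by decide
  have hc : E.card ≤ 2 := le_trans (Finset.card_le_card hE) (le_of_eq hc2)
  rw [Nat.even_iff] at hev
  have h02 : E.card = 0 ∨ E.card = 2 := by omega
  rcases h02 with h0 | h2
  · left
    rw [Finset.card_eq_zero] at h0
    rw [h0] at hs
    have e : symmDiff (h • O) ∅ = h • O := by
      rw [← Finset.bot_eq_empty, symmDiff_bot]
    rw [e] at hs
    exact ⟨hs, h8⟩
  · right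
    have hER : E = unmask 12582912 := Finset.eq_of_subset_of_card_le hE (by rw [hc2, h2])
    rw [hER] at hs
    have h1 := card_symmDiff_add (h • O) (unmask 12582912)
    have h3 := card_of_mem_supports hs
    have h4 : ((h • O) ∩ unmask 12582912).card ≤ 2 :=
      le_trans (Finset.card_le_card Finset.inter_subset_right) (le_of_eq hc2)
    refine ⟨by omega, hs, by omega⟩

theorem autR_R2_dichotomy {h : Equiv.Perm GolayPt} (hh : h ∈ autR (unmask 12582912)) :
    h ∈ M24 ∨ sw2 * h ∈ M24 := by
  by_contra hcon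
  rw [not_or] at hcon
  obtain ⟨hc1, hc2⟩ := hcon
  have h1 : ∃ O ∈ octads, h • O ∉ octads := by
    by_contra hx
    push_neg at hx
    exact hc1 (mem_M24_of_octads hx)
  have h2 : ∃ O ∈ octads, sw2 • h • O ∉ octads := by
    by_contra hx
    push_neg at hx
    exact hc2 (mem_M24_of_octads (fun O hO => by rw [mul_smul]; exact hx O hO))
  obtain ⟨O1, hO1, hn1⟩ := h1
  obtain ⟨O2, hO2, hn2⟩ := h2
  rcases autR_R2_cases hh hO1 with h3 | ⟨h3, h4⟩
  · exact hn1 h3
  rcases autR_R2_cases hh hO2 with h5 | ⟨h5, h6⟩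
  · have h7 : ((h • O2) ∩ unmask 12582912).card = 1 := by
      by_contra h7
      rw [sw2_smul_of_ne_one h7] at hn2
      exact hn2 h5
    -- parity
    have e1 : symmDiff (h • O1) (unmask 12582912) ∩ (h • O2) =
        symmDiff ((h • O1) ∩ (h • O2)) ((h • O2) ∩ unmask 12582912) := by
      ext p
      simp only [Finset.mem_inter, Finset.mem_symmDiff]
      tauto
    have e2 : ((h • O1) ∩ (h • O2)).card = (O1 ∩ O2).card := by
      rw [← Finset.smul_finset_inter, Finset.card_smul_finset]
    have e3 := octad_inter_card hO1 hO2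
    have e4 := octad_inter_card h4 h5
    have e5 := card_symmDiff_add ((h • O1) ∩ (h • O2)) ((h • O2) ∩ unmask 12582912)
    rw [e1] at e4
    omega
  · rw [sw2_smul_of_one h5] at hn2
    exact hn2 h6

theorem sw2_not_mem : sw2 ∉ M24 := by
  intro h
  have h1 : unmask 13062145 ∈ octads := unmask_mem_octads (by decide +kernel) (by decide +kernel)
  have hmem : ∀ O ∈ octads, (O ∩ unmask 12582912).card = 1 → False := by
    intro O hO h1
    have h2 := smul_mem_octads h hO
    rw [sw2_smul_of_one h1] at h2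
    have h3 := octad_inter_card hO h2
    have e : O ∩ symmDiff O (unmask 12582912) = O \ unmask 12582912 := by
      ext p
      simp only [Finset.mem_inter, Finset.mem_symmDiff, Finset.mem_sdiff]
      tauto
    have h4 := Finset.card_sdiff_add_card_inter O (unmask 12582912)
    have h5 : O.card = 8 := hO.2
    rw [e] at h3
    omega
  exact hmem (unmask 9347075) (unmask_mem_octads (by decide +kernel) (by decide +kernel))
    (by decide)

theorem sw2_comm {h : Equiv.Perm GolayPt} (hh : ∀ p ∈ unmask 12582912, h p = p) :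
    sw2 * h = h * sw2 := by
  have h22 : h (pt 22) = pt 22 := hh _ (by decide)
  have h23 : h (pt 23) = pt 23 := hh _ (by decide)
  apply Equiv.ext
  intro p
  rw [Equiv.Perm.mul_apply, Equiv.Perm.mul_apply]
  by_cases h1 : p = pt 22
  · subst h1
    have : sw2 (pt 22) = pt 23 := Equiv.swap_apply_left _ _
    rw [h22, this, h23]
  · by_cases h2 : p = pt 23
    · subst h2
      have : sw2 (pt 23) = pt 22 := Equiv.swap_apply_right _ _
      rw [h23, this, h22]
    · have e1 : sw2 p = p := Equiv.swap_apply_of_ne_of_ne h1 h2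
      have e2 : sw2 (h p) = h p := Equiv.swap_apply_of_ne_of_ne
        (fun e => h1 (h.injective (e.trans h22.symm))) (fun e => h2 (h.injective (e.trans h23.symm)))
      rw [e1, e2]

theorem sw2_mul_self : sw2 * sw2 = 1 := Equiv.swap_mul_self _ _

/-- an element of `autR` of the pair outside `M24`. -/
theorem exists_autR_R2_not_mem :
    ∃ a ∈ autR (unmask 12582912), sw2 * a ∈ M24 := by
  obtain ⟨g, hg, h1, h2⟩ := trans2pt (x1 := pt 22) (x2 := pt 23) (y1 := pt 23) (y2 := pt 22)
    (by decide) (by decide)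
  refine ⟨sw2 * g, ?_, ?_⟩
  · apply mem_autR_of_subset
    · intro p hp
      rcases (mem_R2 p).1 hp with rfl | rfl
      · rw [Equiv.Perm.mul_apply, h1]; exact Equiv.swap_apply_right _ _
      · rw [Equiv.Perm.mul_apply, h2]; exact Equiv.swap_apply_left _ _
    · intro O hO hRO
      rw [mul_smul]
      have h3 : unmask 12582912 ⊆ g • O := by
        intro p hp
        rcases (mem_R2 p).1 hp with rfl | rfl
        · rw [← h2]; exact Finset.smul_mem_smul_finset (hRO (by decide))
        · rw [← h1]; exact Finset.smul_mem_smul_finset (hRO (by decide))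
      rw [sw2_smul_of_ne_one]
      · exact smul_mem_octads hg hO
      · rw [Finset.inter_eq_right.2 h3]; decide
  · rw [← mul_assoc, sw2_mul_self, one_mul]; exact hg

theorem mem_autR_R2_inf {h : Equiv.Perm GolayPt} :
    h ∈ autR (unmask 12582912) ⊓ M24 ↔ h ∈ M24 ∧ h (pt 22) = pt 22 ∧ h (pt 23) = pt 23 := by
  rw [Subgroup.mem_inf]
  constructor
  · rintro ⟨h1, h2⟩
    exact ⟨h2, h1.1 _ (by decide), h1.1 _ (by decide)⟩
  · rintro ⟨h1, h2, h3⟩
    refine ⟨mem_autR_of_M24 h1 ?_, h1⟩
    intro p hp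
    rcases (mem_R2 p).1 hp with rfl | rfl
    · exact h2
    · exact h3

theorem exists_equiv_R2 :
    Nonempty (↥(MulAction.stabilizer M24 (pt 22) ⊓ MulAction.stabilizer M24 (pt 23)) ≃*
      ↥(autR (unmask 12582912) ⊓ M24)) := by
  have hmap : (MulAction.stabilizer M24 (pt 22) ⊓ MulAction.stabilizer M24 (pt 23)).map M24.subtype
      = autR (unmask 12582912) ⊓ M24 := by
    ext h
    rw [mem_autR_R2_inf]
    constructor
    · rintro ⟨g, hg, rfl⟩
      rw [SetLike.mem_coe, Subgroup.mem_inf] at hg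
      exact ⟨g.2, hg.1, hg.2⟩
    · rintro ⟨h1, h2, h3⟩
      exact ⟨⟨h, h1⟩, Subgroup.mem_inf.2 ⟨h2, h3⟩, rfl⟩
  exact ⟨(Subgroup.equivMapOfInjective _ M24.subtype
    (Subgroup.subtype_injective _)).trans (MulEquiv.subgroupCongr hmap)⟩

theorem index_R2 : ((autR (unmask 12582912) ⊓ M24).subgroupOf (autR (unmask 12582912))).index = 2 := by
  rw [Subgroup.index_eq_two_iff]
  obtain ⟨a, ha, ha'⟩ := exists_autR_R2_not_mem
  refine ⟨⟨a, ha⟩, ?_⟩
  rintro ⟨b, hb⟩
  have key : (b * a ∈ M24 ↔ sw2 * b ∈ M24) := by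
    have e : b * a = (sw2 * b) * (sw2 * a) := by
      rw [sw2_comm hb.1, mul_assoc, ← mul_assoc sw2 sw2 a, sw2_mul_self, one_mul]
    rw [e]
    exact Subgroup.mul_mem_cancel_right _ ha'
  have m1 : (⟨b, hb⟩ * ⟨a, ha⟩ : autR (unmask 12582912)) ∈
      (autR (unmask 12582912) ⊓ M24).subgroupOf (autR (unmask 12582912)) ↔ b * a ∈ M24 := by
    rw [Subgroup.mem_subgroupOf, Subgroup.mem_inf]
    exact ⟨fun h => h.2, fun h => ⟨(autR _).mul_mem hb ha, h⟩⟩
  have m2 : (⟨b, hb⟩ : autR (unmask 12582912)) ∈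
      (autR (unmask 12582912) ⊓ M24).subgroupOf (autR (unmask 12582912)) ↔ b ∈ M24 := by
    rw [Subgroup.mem_subgroupOf, Subgroup.mem_inf]
    exact ⟨fun h => h.2, fun h => ⟨hb, h⟩⟩
  rw [m1, m2, key]
  rcases autR_R2_dichotomy hb with h | h
  · refine Or.inr ⟨h, fun h' => sw2_not_mem ?_⟩
    have := M24.mul_mem h' (M24.inv_mem h)
    rwa [mul_inv_cancel_right] at this
  · refine Or.inl ⟨h, fun h' => sw2_not_mem ?_⟩
    have := M24.mul_mem h (M24.inv_mem h')
    rwa [mul_inv_cancel_right] at this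

theorem trans3_R2 (x y : Fin 3 ↪ GolayPt) (hx : ∀ i, x i ∉ unmask 12582912)
    (hy : ∀ i, y i ∉ unmask 12582912) : ∃ g ∈ autR (unmask 12582912), ∀ i, g (x i) = y i := by
  have h22 : pt 22 ∈ unmask 12582912 := by decide
  have h23 : pt 23 ∈ unmask 12582912 := by decide
  have key : ∀ x : Fin 3 ↪ GolayPt, (∀ i, x i ∉ unmask 12582912) →
      Function.Injective (Fin.cons (pt 22) (Fin.cons (pt 23) x) : Fin 5 → GolayPt) := by
    intro x hx
    rw [Fin.cons_injective_iff, Fin.cons_injective_iff]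
    refine ⟨?_, ?_, x.injective⟩
    · rintro ⟨i, hi⟩
      refine Fin.cases ?_ (fun j => ?_) i hi
      · intro hi
        revert hi
        rw [Fin.cons_zero]; decide
      · intro hi
        rw [Fin.cons_succ] at hi
        exact hx j (hi ▸ h22)
    · rintro ⟨i, hi⟩
      exact hx i (hi ▸ h23)
  obtain ⟨g, hg, h⟩ := five_transitive ⟨_, key x hx⟩ ⟨_, key y hy⟩
  refine ⟨g, (Subgroup.mem_inf.1 (mem_autR_R2_inf.2 ⟨hg, h 0, h 1⟩)).1, fun i => h i.succ.succ⟩

end Cfsg.Agent.Lib.Helper27
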