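import Cfsg.Agent.Lib.Helper27.WHS
import Cfsg.Agent.Lib.Helper27.WAut2
import Cfsg.Agent.Lib.Helper27.Flag

/-!
# The automorphism group of the graph on 100 vertices
-/

set_option autoImplicit false
set_option maxRecDepth 100000

namespace Cfsg.Agent.Lib.Helper27

open Cfsg
open scoped Pointwise

/-- the automorphisms of a graph, as permutations of the vertices. -/
def graphAut {V : Type*} (G : SimpleGraph V) : Subgroup (Equiv.Perm V) where
  carrier := {σ | ∀ u v, G.Adj (σ u) (σ v) ↔ G.Adj u v}
  one_mem' := fun _ _ => Iff.rfl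
  mul_mem' := by
    intro a b ha hb u v
    rw [Equiv.Perm.mul_apply, Equiv.Perm.mul_apply, ha, hb]
  inv_mem' := by
    intro a ha u v
    rw [← ha]
    simp

theorem mem_graphAut {V : Type*} {G : SimpleGraph V} {σ : Equiv.Perm V} :
    σ ∈ graphAut G ↔ ∀ u v, G.Adj (σ u) (σ v) ↔ G.Adj u v := Iff.rfl

/-- graph automorphisms as a subgroup of the symmetric group. -/
def graphAutEquiv {V : Type*} (G : SimpleGraph V) : (G ≃g G) ≃* graphAut G where
  toFun φ := ⟨φ.toEquiv, fun _ _ => φ.map_rel_iff⟩
  invFun σ := ⟨σ.1, fun {u v} => σ.2 u v⟩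
  left_inv _ := rfl
  right_inv _ := rfl
  map_mul' _ _ := rfl

section
variable {α : Type*} [DecidableEq α] {B : Set (Finset α)}

theorem pb_adj_none (v : Option (α ⊕ B)) :
    (pointBlockGraph B).Adj none v ↔ ∃ a, v = some (Sum.inl a) := by
  unfold pointBlockGraph
  rw [SimpleGraph.fromRel_adj]
  rcases v with _ | a | b <;> simp [pointBlockRel]

theorem pb_adj_inl_inr (a : α) (b : B) :
    (pointBlockGraph B).Adj (some (Sum.inl a)) (some (Sum.inr b)) ↔ a ∈ (b : Finset α) := by
  unfold pointBlockGraph
  rw [SimpleGraph.fromRel_adj]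
  simp [pointBlockRel]

theorem pb_adj_inl_inl (a a' : α) :
    ¬ (pointBlockGraph B).Adj (some (Sum.inl a)) (some (Sum.inl a')) := by
  unfold pointBlockGraph
  rw [SimpleGraph.fromRel_adj]
  simp [pointBlockRel]

theorem pb_adj_inr_inr (b c : B) :
    (pointBlockGraph B).Adj (some (Sum.inr b)) (some (Sum.inr c)) ↔
      b ≠ c ∧ Disjoint (b : Finset α) (c : Finset α) := by
  unfold pointBlockGraph
  rw [SimpleGraph.fromRel_adj]
  simp only [pointBlockRel, ne_eq, Option.some.injEq, Sum.inr.injEq]
  constructor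
  · rintro ⟨h1, h2 | h2⟩
    · exact ⟨h1, h2⟩
    · exact ⟨h1, h2.symm⟩
  · rintro ⟨h1, h2⟩
    exact ⟨h1, Or.inl h2⟩

theorem smul_mem_of_aut {g : Equiv.Perm α} (hg : g ∈ setSystemAut B) {b : Finset α} (hb : b ∈ B) :
    g • b ∈ B := by
  have h : g • B = B := hg
  rw [← h]; exact ⟨b, hb, rfl⟩

/-- the action of an automorphism of the system on the blocks. -/
def permB (g : setSystemAut B) : Equiv.Perm B where
  toFun b := ⟨(g : Equiv.Perm α) • (b : Finset α), smul_mem_of_aut g.2 b.2⟩
  invFun b := ⟨(g : Equiv.Perm α)⁻¹ • (b : Finset α),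
    smul_mem_of_aut ((setSystemAut B).inv_mem g.2) b.2⟩
  left_inv b := Subtype.ext (inv_smul_smul _ _)
  right_inv b := Subtype.ext (smul_inv_smul _ _)

/-- the action of an automorphism of the system on the vertices of the graph. -/
def theta : setSystemAut B →* Equiv.Perm (Option (α ⊕ B)) where
  toFun g := Equiv.optionCongr (Equiv.sumCongr (g : Equiv.Perm α) (permB g))
  map_one' := by
    apply Equiv.ext
    intro v
    rcases v with _ | a | b
    · rfl
    · rfl
    · show some (Sum.inr (permB (1 : setSystemAut B) b)) = some (Sum.inr b)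
      congr 2
      exact Subtype.ext (one_smul _ _)
  map_mul' g h := by
    apply Equiv.ext
    intro v
    rcases v with _ | a | b
    · rfl
    · rfl
    · show some (Sum.inr (permB (g * h) b)) = some (Sum.inr (permB g (permB h b)))
      congr 2
      exact Subtype.ext (mul_smul _ _ _)

@[simp] theorem theta_none (g : setSystemAut B) : theta g none = none := rfl

@[simp] theorem theta_inl (g : setSystemAut B) (a : α) :
    theta g (some (Sum.inl a)) = some (Sum.inl ((g : Equiv.Perm α) a)) := rfl

@[simp] theorem theta_inr (g : setSystemAut B) (b : B) :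
    theta g (some (Sum.inr b)) = some (Sum.inr (permB g b)) := rfl

theorem permB_coe (g : setSystemAut B) (b : B) :
    ((permB g b : B) : Finset α) = (g : Equiv.Perm α) • (b : Finset α) := rfl

theorem theta_injective : Function.Injective (theta (B := B)) := by
  intro g h e
  apply Subtype.ext
  apply Equiv.ext
  intro a
  have := congrArg (fun σ : Equiv.Perm (Option (α ⊕ B)) => σ (some (Sum.inl a))) e
  simpa using this

theorem theta_mem (g : setSystemAut B) : theta g ∈ graphAut (pointBlockGraph B) := by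
  have key : ∀ u v, (pointBlockGraph B).Adj u v → (pointBlockGraph B).Adj (theta g u) (theta g v) := by
    have half : ∀ u v, pointBlockRel B u v → pointBlockRel B (theta g u) (theta g v) := by
      intro u v h
      rcases u with _ | a | b <;> rcases v with _ | a' | b' <;>
        simp only [pointBlockRel, theta_none, theta_inl, theta_inr] at h ⊢
      · rw [permB_coe]; exact Finset.smul_mem_smul_finset h
      · rw [permB_coe, permB_coe]
        exact (Finset.disjoint_image (MulAction.injective (g : Equiv.Perm α))).2 h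
    intro u v h
    unfold pointBlockGraph at h ⊢
    rw [SimpleGraph.fromRel_adj] at h ⊢
    refine ⟨fun e => h.1 ((theta g).injective e), ?_⟩
    rcases h.2 with h2 | h2
    · exact Or.inl (half _ _ h2)
    · exact Or.inr (half _ _ h2)
  have key' : ∀ (g : setSystemAut B) u v, (pointBlockGraph B).Adj u v →
      (pointBlockGraph B).Adj (theta g u) (theta g v) := by
    intro g
    have half : ∀ u v, pointBlockRel B u v → pointBlockRel B (theta g u) (theta g v) := by
      intro u v h
      rcases u with _ | a | b <;> rcases v with _ | a' | b' <;>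
        simp only [pointBlockRel, theta_none, theta_inl, theta_inr] at h ⊢
      · rw [permB_coe]; exact Finset.smul_mem_smul_finset h
      · rw [permB_coe, permB_coe]
        exact (Finset.disjoint_image (MulAction.injective (g : Equiv.Perm α))).2 h
    intro u v h
    unfold pointBlockGraph at h ⊢
    rw [SimpleGraph.fromRel_adj] at h ⊢
    refine ⟨fun e => h.1 ((theta g).injective e), ?_⟩
    rcases h.2 with h2 | h2
    · exact Or.inl (half _ _ h2)
    · exact Or.inr (half _ _ h2)
  intro u v
  refine ⟨fun h => ?_, key u v⟩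
  have := key' g⁻¹ _ _ h
  rwa [← Equiv.Perm.mul_apply, ← Equiv.Perm.mul_apply, ← map_mul, inv_mul_cancel, map_one] at this

/-- every automorphism of the graph fixing the extra vertex comes from the system. -/
theorem exists_theta_eq [Finite α] {σ : Equiv.Perm (Option (α ⊕ B))}
    (hσ : σ ∈ graphAut (pointBlockGraph B)) (h0 : σ none = none) : ∃ g, theta g = σ := by
  have hpt : ∀ a : α, ∃ a', σ (some (Sum.inl a)) = some (Sum.inl a') := by
    intro a
    rw [← pb_adj_none, ← h0, hσ, pb_adj_none]
    exact ⟨a, rfl⟩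
  choose g0 hg0 using hpt
  have hinj : Function.Injective g0 := by
    intro a a' h
    have : σ (some (Sum.inl a)) = σ (some (Sum.inl a')) := by rw [hg0, hg0, h]
    simpa using σ.injective this
  let g : Equiv.Perm α := Equiv.ofBijective g0 (Finite.injective_iff_bijective.1 hinj)
  have hg : ∀ a, g a = g0 a := fun _ => rfl
  have hbl : ∀ b : B, ∃ b' : B, σ (some (Sum.inr b)) = some (Sum.inr b') := by
    intro b
    rcases h : σ (some (Sum.inr b)) with _ | a' | b'
    · exfalso
      rw [← h0] at h
      simpa using σ.injective h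
    · exfalso
      have h1 : (pointBlockGraph B).Adj none (σ (some (Sum.inr b))) := by
        rw [pb_adj_none]; exact ⟨a', h⟩
      rw [← h0, hσ, pb_adj_none] at h1
      obtain ⟨a, ha⟩ := h1
      simp at ha
    · exact ⟨b', rfl⟩
  choose β hβ using hbl
  have hβg : ∀ b : B, ((β b : B) : Finset α) = g • (b : Finset α) := by
    intro b
    ext x
    obtain ⟨a, rfl⟩ := g.surjective x
    have e : g a ∈ g • (b : Finset α) ↔ a ∈ (b : Finset α) :=
      Finset.smul_mem_smul_finset_iff g
    rw [e, ← pb_adj_inl_inr, ← pb_adj_inl_inr, ← hβ, hg, ← hg0, hσ]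
  have hgB : g ∈ setSystemAut B := by
    haveI : Finite (Finset α) := by
      classical
      haveI := Fintype.ofFinite α
      infer_instance
    have hfin : B.Finite := Set.toFinite _
    apply (MulAction.mem_stabilizer_set_iff_smul_set_subset (G := Equiv.Perm α) (a := g) hfin).2
    rintro _ ⟨b, hb, rfl⟩
    show g • b ∈ B
    have := hβg ⟨b, hb⟩
    rw [← this]; exact (β ⟨b, hb⟩).2
  refine ⟨⟨g, hgB⟩, ?_⟩
  apply Equiv.ext
  intro v
  rcases v with _ | a | b
  · rw [theta_none, h0]
  · rw [theta_inl, hg0]; rfl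
  · rw [theta_inr, hβ]
    congr 2
    apply Subtype.ext
    rw [permB_coe, hβg]

theorem theta_range [Finite α] : (theta (B := B)).range =
    graphAut (pointBlockGraph B) ⊓
      MulAction.stabilizer (Equiv.Perm (Option (α ⊕ B))) (none : Option (α ⊕ B)) := by
  ext σ
  rw [Subgroup.mem_inf, MulAction.mem_stabilizer_iff]
  constructor
  · rintro ⟨g, rfl⟩
    exact ⟨theta_mem g, rfl⟩
  · rintro ⟨h1, h2⟩
    exact exists_theta_eq h1 h2

end

/-- a table of an automorphism moving the extra vertex. -/
def tauT : ℕ := 0x7b1a539226c25ea4e84cbc76980619868c938d852b3b312969c983ac6efe08b62e110e5f72c4faacca925c223c377089974e8eb8532fb00fad131031a428215452d82527ea45b268c2d9aa12323d22035bb4de34417c001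

/-- the inverse table. -/
def tauI : ℕ := 0xae8692505703ba33589b9528db950d6e89d711c7cab18680a6388a2260ba089849b1855f6b03e87384046c31fd576cc844986cb8e571a48d54f4e032c2e5cfbc493915921a9a5ad2f9e48f0fd38136cb28b5145d4060001

/-- entry of a packed table. -/
def ent7 (T i : ℕ) : ℕ := Nat.land (Nat.shiftRight T (Nat.mul 7 i)) 127

theorem tau_check : autCheck rowHS 100 (ent7 tauT) (ent7 tauI) = true := by decide +kernel

theorem block_transitive {α : Type*} [Fintype α] [DecidableEq α] {B : Set (Finset α)}
    (hB : IsSteinerSystem 3 6 B) (htr : MulAction.IsMultiplyPretransitive (setSystemAut B) α 3)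
    {b b' : Finset α} (hb : b ∈ B) (hb' : b' ∈ B) : ∃ g : setSystemAut B,
      (g : Equiv.Perm α) • b = b' := by
  obtain ⟨s, hs, hs3⟩ := Finset.exists_subset_card_eq (s := b) (n := 3) (by rw [hB.1 b hb]; norm_num)
  obtain ⟨s', hs', hs3'⟩ := Finset.exists_subset_card_eq (s := b') (n := 3)
    (by rw [hB.1 b' hb']; norm_num)
  let x : Fin 3 ↪ α := (s.equivFinOfCardEq hs3).symm.toEmbedding.trans (Function.Embedding.subtype _)
  let y : Fin 3 ↪ α := (s'.equivFinOfCardEq hs3').symm.toEmbedding.trans
    (Function.Embedding.subtype _)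
  obtain ⟨g, hg⟩ := htr.exists_smul_eq x y
  refine ⟨g, ?_⟩
  obtain ⟨c, -, hc⟩ := hB.2 s' hs3'
  have h1 := hc b' ⟨hb', hs'⟩
  have h2 := hc ((g : Equiv.Perm α) • b) ⟨smul_mem_of_aut g.2 hb, by
    intro p hp
    have : p = y (s'.equivFinOfCardEq hs3' ⟨p, hp⟩) := by simp [y]
    rw [this, ← hg]
    show (g : Equiv.Perm α) (x _) ∈ _
    apply Finset.smul_mem_smul_finset
    apply hs
    simp [x]⟩
  rw [h1, h2]

theorem graphAut_transitive {α : Type*} [Fintype α] [DecidableEq α] (hα : Fintype.card α = 22)
    {B : Set (Finset α)} (hB : IsSteinerSystem 3 6 B) (v : Option (α ⊕ B)) :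
    ∃ σ ∈ graphAut (pointBlockGraph B), σ none = v := by
  have htr : MulAction.IsMultiplyPretransitive (setSystemAut B) α 3 :=
    pretransitive_of_autR (emb2 hα hB) 3 trans3_R2
  have htr1 : ∀ a a' : α, ∃ g : setSystemAut B, (g : Equiv.Perm α) a = a' := by
    haveI := htr
    haveI : MulAction.IsPretransitive (setSystemAut B) α := by
      rw [← MulAction.is_one_pretransitive_iff]
      exact MulAction.isMultiplyPretransitive_of_le (n := 3) (by norm_num)
        (by rw [Nat.card_eq_fintype_card, hα]; norm_num)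
    intro a a'
    exact MulAction.exists_smul_eq (setSystemAut B) a a'
  obtain ⟨ι, M, ι0, ι1, ι2⟩ := exists_model_HS hα hB
  obtain ⟨τ, hτ⟩ := M.exists_aut tau_check
  have hτA : τ.toEquiv ∈ graphAut (pointBlockGraph B) := fun _ _ => τ.map_rel_iff
  -- the image of the extra vertex is a point
  have h1 : ι (τ none) = 1 := by rw [hτ, ι0]; decide +kernel
  obtain ⟨a0, ha0⟩ : ∃ a0, τ none = some (Sum.inl a0) := by
    rcases h : τ none with _ | a | b
    · rw [h, ι0] at h1; omega
    · exact ⟨a, rfl⟩
    · rw [h] at h1; have := ι2 b; omega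
  have hpts : ∀ a, ∃ σ ∈ graphAut (pointBlockGraph B), σ none = some (Sum.inl a) := by
    intro a
    obtain ⟨g, hg⟩ := htr1 a0 a
    refine ⟨theta g * τ.toEquiv, Subgroup.mul_mem _ (theta_mem g) hτA, ?_⟩
    rw [Equiv.Perm.mul_apply]
    show theta g (τ none) = _
    rw [ha0, theta_inl, hg]
  -- some point is mapped to a block
  obtain ⟨w, hw⟩ := M.surj 2 (by norm_num)
  obtain ⟨q, hq⟩ : ∃ q, w = some (Sum.inl q) := by
    rcases w with _ | a | b
    · rw [ι0] at hw; omega
    · exact ⟨a, rfl⟩
    · have := ι2 b; omega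
  have h2 : ι (τ w) = 95 := by rw [hτ, hw]; decide +kernel
  obtain ⟨b0, hb0⟩ : ∃ b0, τ w = some (Sum.inr b0) := by
    rcases h : τ w with _ | a | b
    · rw [h, ι0] at h2; omega
    · rw [h] at h2; have := ι1 a; omega
    · exact ⟨b, rfl⟩
  rcases v with _ | a | b
  · exact ⟨1, Subgroup.one_mem _, rfl⟩
  · exact hpts a
  · obtain ⟨σ, hσ, hσq⟩ := hpts q
    obtain ⟨g, hg⟩ := block_transitive hB htr b0.2 b.2
    refine ⟨theta g * (τ.toEquiv * σ), Subgroup.mul_mem _ (theta_mem g) (Subgroup.mul_mem _ hτA hσ), ?_⟩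
    rw [Equiv.Perm.mul_apply, Equiv.Perm.mul_apply, hσq, ← hq]
    show theta g (τ w) = _
    rw [hb0, theta_inr]
    congr 2
    exact Subtype.ext hg

theorem card_setSystemAut_22 {α : Type*} [Fintype α] [DecidableEq α] (hα : Fintype.card α = 22)
    {B : Set (Finset α)} (hB : IsSteinerSystem 3 6 B) : Nat.card (setSystemAut B) = 887040 := by
  obtain ⟨f, φ, -, -, -, -⟩ := exists_autEquiv (emb2 hα hB)
  obtain ⟨χ⟩ := exists_equiv_R2
  have hPc : Nat.card ((autR (unmask 12582912) ⊓ M24).subgroupOf (autR (unmask 12582912))) = 443520 := by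
    rw [Nat.card_congr ((Subgroup.subgroupOfEquivOfLe inf_le_left).trans χ.symm).toEquiv]
    exact card_stab_two_pt (by decide)
  rw [Nat.card_congr φ.toEquiv, ← Subgroup.index_mul_card
    ((autR (unmask 12582912) ⊓ M24).subgroupOf (autR (unmask 12582912))), index_R2, hPc]

theorem card_graphAut_HS {α : Type*} [Fintype α] [DecidableEq α] (hα : Fintype.card α = 22)
    {B : Set (Finset α)} (hB : IsSteinerSystem 3 6 B) :
    Nat.card (graphAut (pointBlockGraph B)) = 88704000 := by
  have h := card_step (G := Equiv.Perm (Option (α ⊕ B))) (graphAut (pointBlockGraph B)) none Set.univ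
    (fun v _ => graphAut_transitive hα hB v) (fun _ _ => Set.mem_univ _)
  obtain ⟨ι, M, -⟩ := exists_model_HS hα hB
  haveI : Fintype B := Fintype.ofFinite _
  have hV : Nat.card (Option (α ⊕ B)) = 100 := by
    rw [Nat.card_eq_fintype_card, M.card_eq]
  rw [Set.ncard_univ, hV, ← theta_range,
    ← Nat.card_congr (MonoidHom.ofInjective theta_injective).toEquiv, card_setSystemAut_22 hα hB] at h
  exact h

end Cfsg.Agent.Lib.Helper27
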